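/- The degree of an irreducible representation of a `q`-group over an algebraically closed field is a power of `q`. -/
import Mathlib

set_option autoImplicit false

namespace Cfsg.Agent.HH

universe u v

variable {F : Type*} [Field F]

theorem exists_finrank_eq_pow [IsAlgClosed F] {q : ℕ} [Fact q.Prime] :
    ∀ (n : ℕ) (G : Type u) [Group G] [Finite G] (V : Type v) [AddCommGroup V] [Module F V] [FiniteDimensional F V]
      [Nontrivial V] (ρ : G →* Module.End F V), Nat.card G = n → IsPGroup q G →
      (∀ W : Submodule F V, (∀ g, ∀ w ∈ W, ρ g w ∈ W) → W = ⊥ ∨ W = ⊤) → ∃ b, Module.finrank F V = q ^ b := by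
  intro n
  induction n using Nat.strong_induction_on with
  | _ n ih =>
  intro G _ _ V _ _ _ _ ρ hn hG hirr
  classical
  have hq : q.Prime := Fact.out
  have hinv : ∀ (g : G) (v : V), ρ g⁻¹ (ρ g v) = v := fun g v => by
    rw [← Module.End.mul_apply, ← map_mul, inv_mul_cancel, map_one, Module.End.one_apply]
  by_cases hall : ∀ g, ∃ c : F, ρ g = c • 1
  · refine ⟨0, ?_⟩
    obtain ⟨v, hv⟩ := exists_ne (0 : V)
    rcases hirr (Submodule.span F {v}) (fun g w hw => by
      obtain ⟨c, hc⟩ := hall g
      rw [hc]; exact Submodule.smul_mem _ c hw) with h | h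
    · exact absurd (by simpa using h) hv
    · rw [pow_zero, ← finrank_top F V, ← h, finrank_span_singleton hv]
  push_neg at hall
  obtain ⟨g₀, hg₀⟩ := hall
  have hnil : Group.IsNilpotent G := hG.isNilpotent
  have hex : ∃ i, ∃ a ∈ Subgroup.upperCentralSeries G i, ∀ c : F, ρ a ≠ c • 1 :=
    ⟨Group.nilpotencyClass G, g₀, by rw [upperCentralSeries_nilpotencyClass]; trivial, hg₀⟩
  obtain ⟨i, hi⟩ : ∃ i, Nat.find hex = i + 1 := ⟨Nat.find hex - 1, by
    have : Nat.find hex ≠ 0 := fun h0 => by
      obtain ⟨a, ha, hac⟩ := Nat.find_spec hex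
      rw [h0, Subgroup.upperCentralSeries_zero, Subgroup.mem_bot] at ha
      exact hac 1 (by rw [ha, map_one, one_smul])
    omega⟩
  obtain ⟨a, ha, hac⟩ := Nat.find_spec hex
  rw [hi] at ha
  have hsc : ∀ g : G, ∃ c : F, ρ (g * a * g⁻¹) = c • ρ a := by
    intro g
    have h1 : a * g * a⁻¹ * g⁻¹ ∈ Subgroup.upperCentralSeries G i := Subgroup.mem_upperCentralSeries_succ_iff.mp ha g
    have h2 : ∃ c : F, ρ (a * g * a⁻¹ * g⁻¹)⁻¹ = c • 1 := by
      by_contra hc; push_neg at hc
      exact Nat.find_min hex (show i < Nat.find hex by omega) ⟨_, inv_mem h1, hc⟩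
    obtain ⟨c, hc⟩ := h2
    refine ⟨c, ?_⟩
    rw [show g * a * g⁻¹ = (a * g * a⁻¹ * g⁻¹)⁻¹ * a by group, map_mul, hc, smul_mul_assoc, one_mul]
  choose c hc using hsc
  have hane : ρ a ≠ 0 := fun h => by
    obtain ⟨v, hv⟩ := exists_ne (0 : V)
    exact hv (by rw [← hinv a v, h]; simp)
  have hc0 : ∀ g, c g ≠ 0 := fun g h => by
    have h1 := hc g
    rw [h, zero_smul] at h1
    obtain ⟨v, hv⟩ := exists_ne (0 : V)
    exact hv (by rw [← hinv (g * a * g⁻¹) v, h1]; simp)
  let χ : G →* F :=
    { toFun := c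
      map_one' := by
        have h := hc 1
        simp only [one_mul, inv_one, mul_one] at h
        exact (smul_left_injective F hane (h.symm.trans (one_smul F _).symm))
      map_mul' := fun g h => smul_left_injective F hane (by
        show c (g * h) • ρ a = (c g * c h) • ρ a
        rw [← hc, show g * h * a * (g * h)⁻¹ = g * (h * a * h⁻¹) * g⁻¹ by group, map_mul, map_mul, hc, mul_smul_comm,
          smul_mul_assoc, ← map_mul, ← map_mul, hc, smul_smul, mul_comm]) }
  let H : Subgroup G :=
    { carrier := {g | χ g = 1}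
      one_mem' := map_one χ
      mul_mem' := fun {x y} hx hy => by show χ (x * y) = 1; rw [map_mul, show χ x = 1 from hx, show χ y = 1 from hy, mul_one]
      inv_mem' := fun {x} hx => by
        have h1 : χ x⁻¹ * χ x = 1 := by rw [← map_mul, inv_mul_cancel, map_one]
        show χ x⁻¹ = 1
        rwa [show χ x = 1 from hx, mul_one] at h1 }
  obtain ⟨t, ht⟩ := Module.End.exists_eigenvalue (ρ a)
  set U := Module.End.eigenspace (ρ a) t with hU
  have hUne : U ≠ ⊥ := ht
  have : Nontrivial U := Submodule.nontrivial_iff_ne_bot.mpr hUne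
  have ht0 : t ≠ 0 := by
    rintro rfl
    obtain ⟨v, hv, hv0⟩ := Submodule.exists_mem_ne_zero_of_ne_bot hUne
    rw [hU, Module.End.mem_eigenspace_iff, zero_smul] at hv
    exact hv0 (by rw [← hinv a v, hv, map_zero])
  have hmove : ∀ g : G, ∀ u ∈ U, ρ g u ∈ Module.End.eigenspace (ρ a) (χ g⁻¹ * t) := by
    intro g u hu
    rw [hU, Module.End.mem_eigenspace_iff] at hu
    rw [Module.End.mem_eigenspace_iff, ← Module.End.mul_apply, ← map_mul,
      show a * g = g * (g⁻¹ * a * g⁻¹⁻¹) by group, map_mul, hc, Module.End.mul_apply, LinearMap.smul_apply, hu,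
      map_smul, map_smul, smul_smul]
    rfl
  have hUtop : U ≠ ⊤ := by
    intro htop
    refine hac t (LinearMap.ext fun v => ?_)
    have hv : v ∈ U := htop ▸ Submodule.mem_top
    rw [hU, Module.End.mem_eigenspace_iff] at hv
    simpa using hv
  have hHU : ∀ h ∈ H, ∀ u ∈ U, ρ h u ∈ U := by
    intro h hh u hu
    have h1 := hmove h u hu
    rwa [show χ h⁻¹ = 1 from H.inv_mem hh, one_mul] at h1
  have hHtop : H ≠ ⊤ := fun htop => hUtop ((hirr U fun g w hw => hHU g (htop ▸ Subgroup.mem_top g) w hw).resolve_left hUne)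
  let σ : H →* Module.End F U :=
    { toFun := fun h => (ρ (h : G)).restrict (hHU h h.2)
      map_one' := LinearMap.ext fun u => Subtype.ext (by simp)
      map_mul' := fun x y => LinearMap.ext fun u => Subtype.ext (by
        show ρ ((x * y : H) : G) u = ρ (x : G) (ρ (y : G) u)
        rw [Subgroup.coe_mul, map_mul]; rfl) }
  let A := G ⧸ H
  have : Fintype A := Fintype.ofFinite A
  let L : (A → U) →ₗ[F] V :=
    ∑ x : A, ((ρ x.out).comp U.subtype).comp (LinearMap.proj x)
  have hL : ∀ f : A → U, L f = ∑ x : A, ρ x.out (f x : V) := fun f => by simp [L, LinearMap.sum_apply]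
  have hLinj : Function.Injective L := by
    rw [injective_iff_map_eq_zero]
    intro f hf
    rw [hL] at hf
    funext x
    have hsep : ∀ x y : A, χ x.out⁻¹ * t = χ y.out⁻¹ * t → x = y := by
      intro x y h
      rw [← QuotientGroup.out_eq' x, ← QuotientGroup.out_eq' y, QuotientGroup.eq]
      show χ (x.out⁻¹ * y.out) = 1
      rw [map_mul, mul_right_cancel₀ ht0 h, ← map_mul, inv_mul_cancel, map_one]
    let g : F → V := fun s => ∑ y : A, if χ y.out⁻¹ * t = s then ρ y.out (f y : V) else 0
    have hval : ∀ y : A, g (χ y.out⁻¹ * t) = ρ y.out (f y : V) := by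
      intro y
      show (∑ z : A, _) = _
      rw [Finset.sum_eq_single y, if_pos rfl]
      · intro z _ hzy; exact if_neg fun hh => hzy (hsep z y hh)
      · intro hy; exact absurd (Finset.mem_univ y) hy
    have h0 := (iSupIndep_iff_finsetSum_eq_zero_imp_eq_zero _).mp (ρ a).eigenspaces_iSupIndep
      (Finset.univ.image fun y : A => χ y.out⁻¹ * t) g ?_ ?_ (χ x.out⁻¹ * t)
      (Finset.mem_image_of_mem _ (Finset.mem_univ x))
    · rw [hval] at h0
      exact Subtype.ext (by rw [← hinv x.out (f x : V), h0, map_zero]; rfl)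
    · intro s hs
      obtain ⟨y, -, rfl⟩ := Finset.mem_image.mp hs
      rw [hval]; exact hmove _ _ (f y).2
    · rw [Finset.sum_image (fun a _ b _ h => hsep a b h), Finset.sum_congr rfl fun y _ => hval y]
      exact hf
  have hrange : ∀ W : Submodule F U, (∀ h : H, ∀ w ∈ W, σ h w ∈ W) →
      ∀ g : G, ∀ v ∈ (Submodule.pi Set.univ fun _ : A => W).map L, ρ g v ∈ (Submodule.pi Set.univ fun _ : A => W).map L := by
    rintro W hW g _ ⟨f, hf, rfl⟩
    rw [hL, map_sum]
    refine Submodule.sum_mem _ fun x _ => ?_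
    set y : A := ((g * x.out : G) : A) with hy
    have hmem : y.out⁻¹ * (g * x.out) ∈ H := QuotientGroup.eq.mp (QuotientGroup.out_eq' y)
    refine ⟨Pi.single y (σ ⟨_, hmem⟩ (f x)), fun z _ => ?_, ?_⟩
    · by_cases hz : z = y
      · subst hz; rw [Pi.single_eq_same]; exact hW _ _ (hf x trivial)
      · rw [Pi.single_eq_of_ne hz]; exact zero_mem _
    · rw [hL, Finset.sum_eq_single y (fun z _ hz => by rw [Pi.single_eq_of_ne hz]; simp)
        (fun h => absurd (Finset.mem_univ y) h), Pi.single_eq_same]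
      show ρ y.out (ρ (y.out⁻¹ * (g * x.out)) (f x : V)) = _
      rw [← Module.End.mul_apply, ← map_mul, mul_inv_cancel_left, map_mul, Module.End.mul_apply]
  have hirrU : ∀ W : Submodule F U, (∀ h, ∀ w ∈ W, σ h w ∈ W) → W = ⊥ ∨ W = ⊤ := by
    intro W hW
    by_cases hW0 : W = ⊥
    · exact Or.inl hW0
    right
    have htop := (hirr _ (hrange W hW)).resolve_left (fun hb => hW0 (by
      rw [eq_bot_iff]
      intro w hw
      have hm : L (Pi.single ((1 : G) : A) w) ∈ (Submodule.pi Set.univ fun _ : A => W).map L :=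
        ⟨_, fun z _ => by
          by_cases hz : z = ((1 : G) : A)
          · subst hz; rw [Pi.single_eq_same]; exact hw
          · rw [Pi.single_eq_of_ne hz]; exact zero_mem _, rfl⟩
      rw [hb, Submodule.mem_bot] at hm
      have h2 := congrFun (hLinj (hm.trans (map_zero L).symm)) ((1 : G) : A)
      rw [Pi.single_eq_same] at h2
      rw [h2]; exact zero_mem _))
    rw [eq_top_iff]
    intro u _
    obtain ⟨f, hf, hfu⟩ : L (Pi.single ((1 : G) : A) u) ∈ (Submodule.pi Set.univ fun _ : A => W).map L := by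
      rw [htop]; exact Submodule.mem_top
    have h2 := congrFun (hLinj hfu) ((1 : G) : A)
    rw [Pi.single_eq_same] at h2
    exact h2 ▸ hf _ trivial
  have hLsurj : Function.Surjective L := by
    rw [← LinearMap.range_eq_top]
    have h := hrange ⊤ (fun _ _ _ => Submodule.mem_top)
    rw [show (Submodule.pi Set.univ fun _ : A => (⊤ : Submodule F U)).map L = LinearMap.range L by
      rw [LinearMap.range_eq_map]; congr 1; ext f; simp] at h
    refine (hirr _ h).resolve_left fun hb => ?_
    obtain ⟨u, hu⟩ := exists_ne (0 : U)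
    refine hu ?_
    have hm : L (Pi.single ((1 : G) : A) u) ∈ LinearMap.range L := ⟨_, rfl⟩
    rw [hb, Submodule.mem_bot] at hm
    have h2 := congrFun (hLinj (hm.trans (map_zero L).symm)) ((1 : G) : A)
    rwa [Pi.single_eq_same] at h2
  have hlt : Nat.card H < n := by
    rw [← hn]
    exact lt_of_le_of_ne (Subgroup.card_le_card_group H) fun he => hHtop (Subgroup.eq_top_of_card_eq H he)
  obtain ⟨b, hb⟩ := ih _ hlt H U σ rfl (hG.to_subgroup H) hirrU
  obtain ⟨j, hj⟩ := hG.index H
  refine ⟨j + b, ?_⟩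
  rw [← (LinearEquiv.ofBijective L ⟨hLinj, hLsurj⟩).finrank_eq, Module.finrank_pi_fintype, Finset.sum_const,
    Finset.card_univ, ← Nat.card_eq_fintype_card, smul_eq_mul, hb, show Nat.card A = q ^ j from hj, pow_add]

end Cfsg.Agent.HH
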