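import Mathlib
import Cfsg.Agent.Lib.Element
import Cfsg.Agent.Cores.Fitting
import Cfsg.Agent.PGroup.Frattini
import Cfsg.Agent.PSolv.HallHigman

/-!
# Fixed-point-free automorphisms `σ` with `σ ^ 4 = 1`

An elementary proof that such an automorphism forces a solvable group to have nilpotent derived
subgroup: the key is an averaging argument replacing Frobenius group representation theory.
-/

namespace Cfsg.Agent.FPFFour

open MonoidHom (FixedPointFree)
open scoped commutatorElement

/-- Averaging lemma: if `A` has an automorphism `α` with `α²` inverting `A`, acting compatibly with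
a fixed-point-free `s` (`s ^ 4 = 1`) on an abelian group `V` of coprime order, `A` acts trivially. -/
theorem trivial_of_inverted {A V : Type*} [Group A] [Finite A] [CommGroup V] [Finite V]
    (α : A →* A) (hα : FixedPointFree α) (hinv : ∀ a, α (α a) = a⁻¹)
    (s : V →* V) (hs : FixedPointFree s) (hs4 : ∀ v, s (s (s (s v))) = v)
    (ρ : A →* MulAut V) (hcompat : ∀ a v, ρ (α a) (s v) = s (ρ a v))
    (hodd : Odd (Nat.card A)) (hcop : (Nat.card A).Coprime (Nat.card V)) :
    ∀ a v, ρ a v = v := by
  classical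
  haveI : Fintype A := Fintype.ofFinite A
  -- the norm map is trivial
  have hnorm : ∀ v, v * s v * s (s v) * s (s (s v)) = 1 := by
    intro v
    refine hs _ ?_
    rw [map_mul, map_mul, map_mul, hs4]
    ac_rfl
  set N : V → V := fun v => ∏ a, ρ a v with hN
  have hrel : ∀ a v, v * ρ (a⁻¹ * α a) (s v) * ρ (a⁻¹ * α (α a)) (s (s v)) *
      ρ (a⁻¹ * α (α (α a))) (s (s (s v))) = 1 := by
    intro a v
    have h := congrArg (ρ a⁻¹) (hnorm (ρ a v))
    rw [← hcompat, ← hcompat, ← hcompat, map_mul, map_mul, map_mul, map_one] at h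
    simp only [← MulAut.mul_apply, ← map_mul, inv_mul_cancel] at h
    simpa using h
  have hfp2 : ∀ a, α (α a) = a → a = 1 := by
    intro a ha
    rw [hinv] at ha
    have h2 : orderOf a ∣ 2 :=
      orderOf_dvd_of_pow_eq_one (by rw [sq]; nth_rw 1 [← ha]; exact inv_mul_cancel a)
    rw [← orderOf_eq_one_iff]
    exact Nat.eq_one_of_dvd_coprimes (Nat.coprime_two_right.mpr hodd) (orderOf_dvd_natCard a) h2
  have hfp3 : ∀ a, α (α (α a)) = a → a = 1 := by
    intro a ha
    have : α (α (α (α a))) = α a := by rw [ha]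
    rw [hinv (α (α a)), hinv, inv_inv] at this
    exact hα a this.symm
  have hbij : ∀ β : A →* A, (∀ a, β a = a → a = 1) → Function.Bijective fun a => a⁻¹ * β a := by
    intro β hβ
    refine (Finite.injective_iff_bijective).mp fun x y h => ?_
    have h' : x⁻¹ * β x = y⁻¹ * β y := h
    refine mul_inv_eq_one.mp (hβ (x * y⁻¹) ?_)
    rw [map_mul, map_inv, show β x = x * (y⁻¹ * β y) by rw [← h']; group]
    group
  have hsum : ∀ (β : A →* A), (∀ a, β a = a → a = 1) → ∀ w, ∏ a, ρ (a⁻¹ * β a) w = N w :=
    fun β hβ w => Fintype.prod_bijective _ (hbij β hβ) _ _ fun a => rfl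
  have hfix : ∀ b w, ρ b (N w) = N w := by
    intro b w
    rw [hN, map_prod]
    exact Fintype.prod_bijective _ (Group.mulLeft_bijective b) _ _ fun a => by
      rw [map_mul, MulAut.mul_apply]
  intro b v
  have h := Finset.prod_congr (rfl : (Finset.univ : Finset A) = Finset.univ) fun a _ => hrel a v
  rw [Finset.prod_const_one, Finset.prod_mul_distrib, Finset.prod_mul_distrib,
    Finset.prod_mul_distrib, Finset.prod_const, Finset.card_univ, ← Nat.card_eq_fintype_card,
    hsum α hα, show (∏ a, ρ (a⁻¹ * α (α a)) (s (s v))) = N (s (s v)) from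
      hsum (α.comp α) hfp2 _,
    show (∏ a, ρ (a⁻¹ * α (α (α a))) (s (s (s v)))) = N (s (s (s v))) from
      hsum (α.comp (α.comp α)) hfp3 _, mul_assoc, mul_assoc, ← eq_inv_iff_mul_eq_one] at h
  have hb : ρ b (v ^ Nat.card A) = v ^ Nat.card A := by
    rw [h, map_inv, map_mul, map_mul, hfix, hfix, hfix]
  rw [map_pow] at hb
  exact (powCoprime hcop.symm).injective hb

variable {G : Type*} [Group G] [Finite G]

theorem fixedPointFree_map {H : Type*} [Group H] (σ : G →* G) (hσ : FixedPointFree σ) (f : G →* H)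
    (hf : Function.Surjective f) (τ : H →* H) (hcomm : ∀ g, τ (f g) = f (σ g)) :
    FixedPointFree τ := by
  intro y hy
  obtain ⟨g, rfl⟩ := hf y
  rw [hcomm] at hy
  have hker : ∀ n ∈ f.ker, σ n ∈ f.ker := fun n hn => by
    rw [MonoidHom.mem_ker, ← hcomm, hn, map_one]
  let σ' : f.ker →* f.ker := (σ.comp f.ker.subtype).codRestrict f.ker fun n => hker n n.2
  have hσ' : FixedPointFree σ' := fun n hn => Subtype.ext (hσ _ (congrArg Subtype.val hn))
  have hm : g / σ g ∈ f.ker := by rw [MonoidHom.mem_ker, map_div, hy, div_self']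
  obtain ⟨n, hn⟩ := hσ'.commutatorMap_surjective ⟨g / σ g, hm⟩
  have hn' : (n : G) / σ n = g / σ g := congrArg Subtype.val hn
  rw [← hσ.commutatorMap_injective hn']
  exact n.2

/-- A group with a fixed-point-free automorphism with `σ ^ 4 = 1` has odd order. -/
theorem odd_card (σ : G →* G) (hσ : FixedPointFree σ) (h4 : ∀ g, σ (σ (σ (σ g))) = g) :
    Odd (Nat.card G) := by
  -- the fixed group of `σ²` carries a fixed-point-free involution
  rw [← Nat.not_even_iff_odd, even_iff_two_dvd]
  intro hd
  haveI := Fact.mk Nat.prime_two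
  let e : Equiv.Perm G := ⟨fun g => σ g, fun g => σ (σ (σ g)), fun g => h4 g, fun g => h4 g⟩
  have he : ∀ g, e g = σ g := fun g => rfl
  have hpow : e ^ 2 ^ 2 = 1 := Equiv.ext fun g => h4 g
  classical
  haveI := Fintype.ofFinite G
  obtain ⟨g, hg, hg1⟩ := Equiv.Perm.exists_fixed_point_of_prime'
    (by rwa [← Nat.card_eq_fintype_card]) hpow (a := (1 : G)) (map_one σ)
  exact hg1 (hσ g hg)

/-- In a solvable group with fixed-point-free `σ`, `σ ^ 4 = 1`, having no nontrivial normal
`p'`-subgroup, the commutator subgroup is a `p`-group. -/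
theorem commutator_le_pCore [Group.IsSolvable G] (p : ℕ) [Fact p.Prime] (σ : G →* G)
    (hσ : FixedPointFree σ) (h4 : ∀ g, σ (σ (σ (σ g))) = g)
    (hO : Cfsg.pPrimeCore p G = ⊥) : commutator G ≤ Cfsg.pCore p G := by
  classical
  have hp : p.Prime := Fact.out
  set P := Cfsg.pCore p G with hPdef
  let e : MulAut G := MulEquiv.ofBijective σ ⟨fun a b h => by
    have := congrArg (fun x => σ (σ (σ x))) h; rwa [h4, h4] at this,
    fun g => ⟨σ (σ (σ g)), h4 g⟩⟩
  have hchar : ∀ K : Subgroup G, K.Characteristic → ∀ x ∈ K, σ x ∈ K := fun K hK x hx => by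
    have := Subgroup.characteristic_iff_map_le.mp hK e
    exact this ⟨x, hx, rfl⟩
  haveI : P.Characteristic := inferInstance
  have hPgrp : IsPGroup p P := Cores.pCore_isPGroup
  have hCP : Subgroup.centralizer (P : Set G) ≤ P :=
    PSolv.centralizer_pCore_le (PSolv.isPSolvable_of_isSolvable inferInstance) hO
  -- the induced map on `Q = G ⧸ P`
  set Q := G ⧸ P with hQdef
  let τ : Q →* Q := QuotientGroup.map P P σ fun x hx => hchar P inferInstance x hx
  have hτ : FixedPointFree τ :=
    fixedPointFree_map σ hσ (QuotientGroup.mk' P) (QuotientGroup.mk'_surjective P) τ fun g => rfl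
  have hτ4 : ∀ q, τ (τ (τ (τ q))) = q := fun q => by
    obtain ⟨g, rfl⟩ := QuotientGroup.mk_surjective q
    exact congrArg QuotientGroup.mk (h4 g)
  have hoddQ : Odd (Nat.card Q) := odd_card τ hτ hτ4
  -- the Frattini quotient of `P` inside `H = G ⧸ Φ`
  set Φ := (frattini ↥P).map P.subtype with hΦdef
  haveI : Φ.Characteristic := inferInstance
  set H := G ⧸ Φ with hHdef
  let f := QuotientGroup.mk' Φ
  set V : Subgroup H := P.map f with hVdef
  haveI : V.Normal := (inferInstance : P.Normal).map f (QuotientGroup.mk'_surjective Φ)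
  let sH : H →* H := QuotientGroup.map Φ Φ σ fun x hx => hchar Φ inferInstance x hx
  have hVab : IsMulCommutative V := by
    refine ⟨⟨fun a b => Subtype.ext ?_⟩⟩
    obtain ⟨x, hx, hxa⟩ := a.2
    obtain ⟨y, hy, hyb⟩ := b.2
    show (a : H) * b = b * a
    rw [← hxa, ← hyb, ← map_mul, ← map_mul]
    apply QuotientGroup.eq.mpr
    have hc : ⁅(⟨y, hy⟩ : P)⁻¹, (⟨x, hx⟩ : P)⁻¹⁆ ∈ frattini ↥P :=
      PGroup.commutatorElement_mem_frattini hPgrp _ _
    refine ⟨_, hc, ?_⟩
    simp only [commutatorElement_def, map_mul, map_inv, inv_inv, Subgroup.coe_subtype]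
    group
  letI : CommGroup V := { (inferInstance : Group V) with mul_comm := fun a b => hVab.is_comm.comm a b }
  have hsV : ∀ v ∈ V, sH v ∈ V := by
    rintro _ ⟨x, hx, rfl⟩
    exact ⟨σ x, hchar P inferInstance x hx, rfl⟩
  let s : V →* V := (sH.comp V.subtype).codRestrict V fun v => hsV v v.2
  have hs : FixedPointFree s := fun v hv => by
    have hH : FixedPointFree sH :=
      fixedPointFree_map σ hσ f (QuotientGroup.mk'_surjective Φ) sH fun g => rfl
    exact Subtype.ext (hH _ (congrArg Subtype.val hv))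
  have hs4 : ∀ v, s (s (s (s v))) = v := fun v => by
    obtain ⟨g, hg⟩ := QuotientGroup.mk_surjective (v : H)
    apply Subtype.ext
    show sH (sH (sH (sH (v : H)))) = v
    rw [← hg]
    exact congrArg QuotientGroup.mk (h4 g)
  let ρG : G →* MulAut V := MulAut.conjNormal.comp f
  have hker : ∀ x ∈ P, ρG x = 1 := fun x hx => MulEquiv.ext fun v => Subtype.ext (by
    show ((MulAut.conjNormal (f x) v : V) : H) = (v : H)
    rw [MulAut.conjNormal_apply, mul_inv_eq_iff_eq_mul]
    exact congrArg Subtype.val (hVab.is_comm.comm (⟨f x, ⟨x, hx, rfl⟩⟩ : V) v))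
  let ρ : Q →* MulAut V := QuotientGroup.lift P ρG fun x hx => hker x hx
  have hcompat : ∀ q v, ρ (τ q) (s v) = s (ρ q v) := by
    intro q v
    obtain ⟨g, rfl⟩ := QuotientGroup.mk_surjective q
    apply Subtype.ext
    show ((MulAut.conjNormal (sH (f g)) (s v) : V) : H) = sH ((MulAut.conjNormal (f g) v : V) : H)
    rw [MulAut.conjNormal_apply, MulAut.conjNormal_apply, map_mul, map_mul, map_inv]
    rfl
  -- an inverted invariant abelian `p'`-subgroup of `Q` is trivial
  have hkill : ∀ (A : Subgroup Q) (hA : ∀ a ∈ A, τ a ∈ A), (Nat.card A).Coprime p →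
      (∀ a ∈ A, τ (τ a) = a⁻¹) → A = ⊥ := by
    intro A hA hcop hinv
    let α : A →* A := (τ.comp A.subtype).codRestrict A fun a => hA a a.2
    have htriv := trivial_of_inverted α (fun a ha => Subtype.ext (hτ _ (congrArg Subtype.val ha)))
      (fun a => Subtype.ext (hinv a a.2)) s hs hs4 (ρ.comp A.subtype) (fun a v => hcompat a v)
      (hoddQ.of_dvd_nat A.card_subgroup_dvd_card)
      (by
        obtain ⟨k, hk⟩ := IsPGroup.iff_card.mp (hPgrp.map f : IsPGroup p V)
        rw [hk]; exact hcop.pow_right k)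
    rw [eq_bot_iff]
    intro a ha
    obtain ⟨g, hga, hgcop⟩ := Element.exists_pPrimeElement_preimage hp (QuotientGroup.mk' P)
      (QuotientGroup.mk'_surjective P) (y := a) (Element.coprime_orderOf_of_mem hcop ha)
    have hgC : g ∈ Subgroup.centralizer (P : Set G) := by
      rw [Subgroup.mem_centralizer_iff]
      intro x hx
      refine (PGroup.commute_of_coprime_of_frattini hPgrp hgcop
        (Subgroup.le_normalizer_of_normal (H := P) (K := ⊤) (Subgroup.mem_top g)) (fun y hy => ?_) x hx).symm
      have h1 := htriv ⟨a, ha⟩ ⟨f y, ⟨y, hy, rfl⟩⟩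
      have h2 : ρ a ⟨f y, ⟨y, hy, rfl⟩⟩ = (⟨f y, ⟨y, hy, rfl⟩⟩ : V) := h1
      rw [← hga] at h2
      have h3 : f g * f y * (f g)⁻¹ = f y := congrArg Subtype.val h2
      show y⁻¹ * (g * y * g⁻¹) ∈ Φ
      apply QuotientGroup.eq.mp
      rw [← map_inv, ← map_mul, ← map_mul] at h3
      exact h3.symm
    rw [Subgroup.mem_bot, ← hga]
    exact (QuotientGroup.eq_one_iff g).mpr (hCP hgC)
  -- `τ²` is trivial on every invariant `p'`-subgroup of `Q`
  have htriv2 : ∀ (n : ℕ) (X : Subgroup Q), Nat.card X ≤ n → (∀ x ∈ X, τ x ∈ X) →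
      (Nat.card X).Coprime p → ∀ x ∈ X, τ (τ x) = x := by
    intro n
    induction n with
    | zero => intro X hn; have := Nat.card_pos (α := X); omega
    | succ n ih =>
      intro X hn hX hcop x hx
      by_cases hX1 : X = ⊥
      · rw [hX1, Subgroup.mem_bot] at hx
        rw [hx, map_one, map_one]
      have hlt : ∀ Y : Subgroup Q, Y < X → (∀ y ∈ Y, τ y ∈ Y) → ∀ y ∈ Y, τ (τ y) = y := by
        intro Y hY hYinv
        refine ih Y ?_ hYinv (hcop.coprime_dvd_left (Subgroup.card_dvd_of_le hY.le))
        have : Nat.card Y < Nat.card X := by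
          by_contra hge
          exact hY.ne (Subgroup.eq_of_le_of_card_ge hY.le (by omega))
        omega
      set D : Subgroup Q := ⁅X, X⁆ with hD
      have hDlt : D < X := by
        refine lt_of_le_of_ne (Subgroup.commutator_le_self X) fun h => hX1 ?_
        haveI : Nontrivial X := (Subgroup.nontrivial_iff_ne_bot X).mpr hX1 |> fun h' => h'
        have := Group.IsSolvable.commutator_lt_top_of_nontrivial X
        refine absurd ?_ this.ne
        apply Subgroup.map_injective X.subtype_injective
        rw [Subgroup.map_subtype_commutator, ← hD, h, ← MonoidHom.range_eq_map, Subgroup.range_subtype]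
      have hmapX : X.map τ ≤ X := by rintro _ ⟨z, hz, rfl⟩; exact hX z hz
      have hDinv : ∀ y ∈ D, τ y ∈ D := fun y hy =>
        (Subgroup.map_commutator X X τ).le.trans (Subgroup.commutator_mono hmapX hmapX) ⟨y, hy, rfl⟩
      have hDfix := hlt D hDlt hDinv
      have hDn : ∀ z ∈ X, ∀ d ∈ D, z * d * z⁻¹ ∈ D := fun z hz d hd =>
        (Subgroup.mem_normalizer_iff.mp (Subgroup.normalizer_commutator_ge_left X X hz) d).mp hd
      set K : Subgroup Q := Subgroup.closure {k | ∃ z ∈ X, k = z⁻¹ * τ (τ z)} with hK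
      have hKX : K ≤ X := (Subgroup.closure_le X).mpr (by
        rintro _ ⟨z, hz, rfl⟩; exact mul_mem (inv_mem hz) (hX _ (hX z hz)))
      have hKinv : ∀ k ∈ K, τ k ∈ K := by
        intro k hk
        have hle : K.map τ ≤ K := by
          rw [hK, MonoidHom.map_closure, Subgroup.closure_le]
          rintro _ ⟨_, ⟨z, hz, rfl⟩, rfl⟩
          exact Subgroup.subset_closure ⟨τ z, hX z hz, by rw [map_mul, map_inv]⟩
        exact hle ⟨k, hk, rfl⟩
      rcases hKX.lt_or_eq with hKlt | hKeq
      · -- `τ²` is trivial on `X`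
        have hfix := hlt K hKlt hKinv (x⁻¹ * τ (τ x)) (Subgroup.subset_closure ⟨x, hx, rfl⟩)
        rw [map_mul, map_mul, map_inv, map_inv, hτ4] at hfix
        set c := x⁻¹ * τ (τ x) with hc
        have hc2 : c ^ 2 = 1 := by
          rw [sq]; nth_rw 1 [← hfix]; rw [hc]; group
        have : c = 1 := by
          rw [← orderOf_eq_one_iff]
          exact Nat.eq_one_of_dvd_coprimes (Nat.coprime_two_right.mpr hoddQ)
            (orderOf_dvd_natCard c) (orderOf_dvd_of_pow_eq_one hc2)
        exact (inv_mul_eq_one.mp this).symm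
      · have hcentral : ∀ d ∈ D, ∀ z ∈ X, Commute z d := by
          intro d hd z hz
          have hle : K ≤ Subgroup.centralizer ({d} : Set Q) := (Subgroup.closure_le _).mpr (by
            rintro _ ⟨u, hu, rfl⟩
            rw [SetLike.mem_coe, Subgroup.mem_centralizer_singleton_iff]
            have h1 : τ (τ (u * d * u⁻¹)) = u * d * u⁻¹ := hDfix _ (hDn u hu d hd)
            rw [map_mul, map_mul, map_mul, map_mul, map_inv, map_inv, hDfix d hd] at h1
            calc u⁻¹ * τ (τ u) * d = u⁻¹ * (τ (τ u) * d * (τ (τ u))⁻¹) * τ (τ u) := by group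
              _ = u⁻¹ * (u * d * u⁻¹) * τ (τ u) := by rw [h1]
              _ = d * (u⁻¹ * τ (τ u)) := by group)
          exact Subgroup.mem_centralizer_singleton_iff.mp (hle (hKeq.symm ▸ hz))
        have hinvtriv : ∀ u ∈ X, τ (τ u) = u⁻¹ → u = 1 := by
          intro u hu huinv
          have hz : ⁅u, τ u⁆ ∈ D := Subgroup.commutator_mem_commutator hu (hX u hu)
          have hzc : Commute u ⁅u, τ u⁆ := hcentral _ hz u hu
          have hτz : τ ⁅u, τ u⁆ = ⁅u, τ u⁆ := by
            rw [map_commutatorElement, huinv]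
            calc ⁅τ u, u⁻¹⁆ = u⁻¹ * ⁅u, τ u⁆ * u := by simp only [commutatorElement_def]; group
              _ = ⁅u, τ u⁆ := by rw [mul_assoc, ← hzc.eq]; group
          have hcomm : u * τ u = τ u * u := commutatorElement_eq_one_iff_mul_comm.mp (hτ _ hτz)
          set A : Subgroup Q := Subgroup.closure {u, τ u} with hA
          have hAab : IsMulCommutative A := Subgroup.isMulCommutative_closure (by
            rintro a (rfl | rfl) b (rfl | rfl)
            all_goals first | rfl | exact hcomm | exact hcomm.symm)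
          have hAX : A ≤ X := (Subgroup.closure_le X).mpr (by
            rintro a (rfl | rfl)
            exacts [hu, hX _ hu])
          have hAinv : ∀ a ∈ A, τ a ∈ A := by
            intro a ha
            have hle : A.map τ ≤ A := by
              rw [hA, MonoidHom.map_closure, Subgroup.closure_le]
              rintro _ ⟨b, (rfl | rfl), rfl⟩
              · exact Subgroup.subset_closure (Or.inr rfl)
              · rw [huinv]; exact inv_mem (Subgroup.subset_closure (Or.inl rfl))
            exact hle ⟨a, ha, rfl⟩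
          have hAi : ∀ a ∈ A, τ (τ a) = a⁻¹ := by
            intro a ha
            induction ha using Subgroup.closure_induction with
            | mem b hb =>
              rcases hb with rfl | rfl
              · exact huinv
              · rw [huinv, map_inv]
            | one => simp
            | mul b c hb hc hb' hc' =>
              rw [map_mul, map_mul, hb', hc', ← mul_inv_rev]
              exact congrArg (·⁻¹) (congrArg Subtype.val (hAab.is_comm.comm (⟨c, hc⟩ : A) ⟨b, hb⟩))
            | inv b hb hb' => rw [map_inv, map_inv, hb']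
          have := hkill A hAinv (hcop.coprime_dvd_left (Subgroup.card_dvd_of_le hAX)) hAi
          exact Subgroup.mem_bot.mp (this ▸ Subgroup.subset_closure (Or.inl rfl))
        have := hinvtriv (x⁻¹ * τ (τ x)) (mul_mem (inv_mem hx) (hX _ (hX x hx)))
          (by rw [map_mul, map_mul, map_inv, map_inv, hτ4]; group)
        exact (inv_mul_eq_one.mp this).symm
  -- `τ²` is trivial on `Q`
  have hOQ : Cfsg.pCore p Q = ⊥ := Cores.pCore_quotient_pCore_eq_bot
  set F := Cfsg.fittingSubgroup Q with hFdef
  have hFcop : (Nat.card F).Coprime p := by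
    haveI := Cores.fittingSubgroup_isNilpotent (G := Q)
    refine Element.coprime_card_of_forall_orderOf hp fun a => ?_
    set z := Element.pPart p a
    obtain ⟨S⟩ : Nonempty (Sylow p F) := inferInstance
    have hSn : (S : Subgroup F).Normal :=
      (Group.isNilpotent_of_finite_tfae.out 0 3 rfl rfl).1 ‹_› p ⟨hp⟩ S
    haveI := S.characteristic_of_normal hSn
    haveI := Sylow.unique_of_normal S hSn
    obtain ⟨R, hR⟩ := Element.exists_sylow_mem (Element.orderOf_pPart_eq_pow hp a)
    have hzS : z ∈ (S : Subgroup F) := Subsingleton.elim R S ▸ hR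
    have hmem : (z : Q) ∈ (⊥ : Subgroup Q) := hOQ ▸
      Cores.le_pCore (N := (S : Subgroup F).map F.subtype) inferInstance (S.isPGroup'.map _)
        ⟨z, hzS, rfl⟩
    rw [← Element.pPart_mul_pComplPart p a,
      show Element.pPart p a = 1 from Subtype.ext (Subgroup.mem_bot.mp hmem), one_mul]
    exact Element.coprime_orderOf_pComplPart hp a
  let eQ : MulAut Q := MulEquiv.ofBijective τ ⟨fun a b h => by
    have := congrArg (fun x => τ (τ (τ x))) h; rwa [hτ4, hτ4] at this,
    fun g => ⟨τ (τ (τ g)), hτ4 g⟩⟩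
  have hFinv : ∀ x ∈ F, τ x ∈ F := fun x hx =>
    (Subgroup.characteristic_iff_map_le.mp (inferInstance : F.Characteristic) eQ) ⟨x, hx, rfl⟩
  have hFfix := htriv2 _ F le_rfl hFinv hFcop
  have hCF : Subgroup.centralizer (F : Set Q) ≤ F :=
    Cores.centralizer_fittingSubgroup_le_of_isSolvable inferInstance
  have hall : ∀ q : Q, τ (τ q) = q := by
    intro q
    set c := q⁻¹ * τ (τ q) with hc
    have hcF : c ∈ F := by
      refine hCF (Subgroup.mem_centralizer_iff.mpr fun d hd => ?_)
      have h1 : τ (τ (q * d * q⁻¹)) = q * d * q⁻¹ :=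
        hFfix _ ((inferInstance : F.Normal).conj_mem d hd q)
      rw [map_mul, map_mul, map_mul, map_mul, map_inv, map_inv, hFfix d hd] at h1
      calc d * c = q⁻¹ * (q * d * q⁻¹) * τ (τ q) := by rw [hc]; group
        _ = q⁻¹ * (τ (τ q) * d * (τ (τ q))⁻¹) * τ (τ q) := by rw [h1]
        _ = c * d := by rw [hc]; group
    have hfix := hFfix c hcF
    rw [hc, map_mul, map_mul, map_inv, map_inv, hτ4, ← hc] at hfix
    have hc2 : c ^ 2 = 1 := by
      rw [sq]; nth_rw 1 [← hfix]; rw [hc]; group
    have : c = 1 := by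
      rw [← orderOf_eq_one_iff]
      exact Nat.eq_one_of_dvd_coprimes (Nat.coprime_two_right.mpr hoddQ)
        (orderOf_dvd_natCard c) (orderOf_dvd_of_pow_eq_one hc2)
    exact (inv_mul_eq_one.mp this).symm
  rw [← Subgroup.Normal.quotient_commutative_iff_commutator_le]
  exact ⟨⟨fun a b => hτ.commute_all_of_involutive hall a b⟩⟩

/-- **Gorenstein–Herstein**: nilpotent derived subgroup. -/
theorem isNilpotent_commutator [Group.IsSolvable G] (σ : G →* G) (hσ : FixedPointFree σ)
    (h4 : ∀ g, σ (σ (σ (σ g))) = g) : Group.IsNilpotent (commutator G) := by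
  classical
  let ι := {p : ℕ // p.Prime ∧ p ∣ Nat.card G}
  haveI : Finite ι := (Set.Finite.to_subtype
    ((Set.finite_le_nat (Nat.card G)).subset fun p hp => Nat.le_of_dvd Nat.card_pos hp.2))
  let O : ι → Subgroup G := fun p => Cfsg.pPrimeCore (p : ℕ) G
  let E : ι → Type _ := fun p => ↥((commutator G).map (QuotientGroup.mk' (O p)))
  have hnil : ∀ p : ι, Group.IsNilpotent (E p) := by
    intro p
    haveI := Fact.mk p.2.1
    let e : MulAut G := MulEquiv.ofBijective σ ⟨fun a b h => by
      have := congrArg (fun x => σ (σ (σ x))) h; rwa [h4, h4] at this,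
      fun g => ⟨σ (σ (σ g)), h4 g⟩⟩
    let σp : G ⧸ O p →* G ⧸ O p := QuotientGroup.map (O p) (O p) σ fun x hx =>
      (Subgroup.characteristic_iff_map_le.mp (inferInstance : (O p).Characteristic) e) ⟨x, hx, rfl⟩
    have h4p : ∀ q, σp (σp (σp (σp q))) = q := fun q => by
      obtain ⟨g, rfl⟩ := QuotientGroup.mk_surjective q
      exact congrArg QuotientGroup.mk (h4 g)
    have hle := commutator_le_pCore (p : ℕ) σp
      (fixedPointFree_map σ hσ (QuotientGroup.mk' (O p)) (QuotientGroup.mk'_surjective _) σp fun g => rfl)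
      h4p Cores.pPrimeCore_quotient_pPrimeCore_eq_bot
    have hmap : (commutator G).map (QuotientGroup.mk' (O p)) ≤ commutator (G ⧸ O p) := by
      rw [commutator_def, commutator_def, Subgroup.map_commutator]
      exact Subgroup.commutator_mono le_top le_top
    exact ((Cores.pCore_isPGroup (p := (p : ℕ))).to_le (hmap.trans hle)).isNilpotent
  haveI := hnil
  let Φ : commutator G →* (∀ p, E p) :=
    Pi.monoidHom fun p => (QuotientGroup.mk' (O p)).subgroupMap (commutator G)
  have hinj : Function.Injective Φ := by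
    rw [← MonoidHom.ker_eq_bot_iff, eq_bot_iff]
    intro c hc
    rw [Subgroup.mem_bot]
    by_contra hne
    obtain ⟨p, hp, hpd⟩ := Nat.exists_prime_and_dvd
      (fun h => hne (orderOf_eq_one_iff.mp h) : orderOf c ≠ 1)
    haveI := Fact.mk hp
    have hpd' : p ∣ orderOf (c : G) := by rwa [Subgroup.orderOf_coe]
    have hcO : (c : G) ∈ O ⟨p, hp, hpd'.trans (orderOf_dvd_natCard _)⟩ := by
      have := congrArg Subtype.val (congrFun hc ⟨p, hp, hpd'.trans (orderOf_dvd_natCard _)⟩)
      exact (QuotientGroup.eq_one_iff _).mp this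
    exact (Nat.Prime.coprime_iff_not_dvd hp).mp (Cores.orderOf_coprime_of_mem_pPrimeCore hcO).symm hpd'
  exact Group.nilpotent_of_mulEquiv (MonoidHom.ofInjective hinj).symm

end Cfsg.Agent.FPFFour
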