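import Cfsg.Agent.Lib.Hall

/-!
Carter subgroups of finite solvable groups: existence and conjugacy.
-/

set_option autoImplicit false

universe u

namespace Cfsg.Agent.Carter

open Subgroup
open scoped Pointwise

variable {G : Type u} [Group G]

/-- A Carter subgroup: nilpotent and self-normalizing. -/
def IsCarter (C : Subgroup G) : Prop :=
  Group.IsNilpotent C ∧ Subgroup.normalizer (C : Set G) = C

theorem isNilpotent_map {G' : Type*} [Group G'] (f : G →* G') (C : Subgroup G) [Group.IsNilpotent C] :
    Group.IsNilpotent (C.map f) :=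
  Group.nilpotent_of_surjective (f.subgroupMap C) (f.subgroupMap_surjective C)

theorem isCarter_conj {C : Subgroup G} (h : IsCarter C) (g : G) :
    IsCarter (MulAut.conj g • C : Subgroup G) := by
  refine ⟨?_, ?_⟩
  · have := h.1
    exact isNilpotent_map (MulAut.conj g).toMonoidHom C
  · conv_rhs => rw [← h.2]
    show _ = (Subgroup.normalizer (C : Set G)).map (MulAut.conj g).toMonoidHom
    rw [map_equiv_normalizer_eq]
    rfl

theorem isCarter_subgroupOf {C K : Subgroup G} (h : IsCarter C) (hCK : C ≤ K) :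
    IsCarter (C.subgroupOf K) := by
  refine ⟨?_, ?_⟩
  · have := h.1
    exact (Group.isNilpotent_congr (subgroupOfEquivOfLe hCK)).mpr h.1
  · refine le_antisymm (fun x hx => ?_) le_normalizer
    show (x : G) ∈ C
    rw [← h.2, mem_normalizer_iff]
    intro y
    constructor
    · intro hy
      exact (mem_normalizer_iff.mp hx ⟨y, hCK hy⟩).mp hy
    · intro hy
      have := (mem_normalizer_iff.mp (inv_mem hx) ⟨_, hCK hy⟩).mp hy
      simpa [mem_subgroupOf, mul_assoc] using this

/-- A Hall π-subgroup of a finite nilpotent group is normal. -/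
theorem normal_of_isPiHall [Finite G] [Group.IsNilpotent G] {π : Set ℕ} {R : Subgroup G}
    (hR : Cfsg.IsPiHall π R) : R.Normal := by
  rw [← normalizer_eq_top_iff]
  by_contra hne
  obtain ⟨g, hg, hgR⟩ := SetLike.exists_of_lt
    (normalizerCondition_of_isNilpotent (Subgroup.normalizer (R : Set G)) (lt_top_iff_ne_top.mpr hne))
  apply hgR
  set M := Subgroup.normalizer (R : Set G) with hM
  have hle : R ≤ M := le_normalizer
  have hle' : (MulAut.conj g • R : Subgroup G) ≤ M := by
    rintro _ ⟨x, hx, rfl⟩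
    exact (mem_normalizer_iff.mp hg x).mp (hle hx)
  have hn : (R.subgroupOf M).Normal := normal_subgroupOf_of_le_normalizer le_rfl
  have hH : Cfsg.IsPiHall π (R.subgroupOf M) := by
    refine ⟨fun p hp hd => hR.1 p hp ?_, fun p hp hpπ hd => hR.2 p hp hpπ (hd.trans (relIndex_dvd_index_of_le hle))⟩
    rwa [Nat.card_congr (subgroupOfEquivOfLe hle).toEquiv] at hd
  have hS : Hall.PiNum π (Nat.card ((MulAut.conj g • R).subgroupOf M)) := by
    intro p hp hd
    rw [Nat.card_congr (subgroupOfEquivOfLe hle').toEquiv, SZ.card_conj_smul] at hd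
    exact hR.1 p hp hd
  have h1 := Hall.le_of_normal_isPiHall hH hS
  have h2 : MulAut.conj g • R ≤ R := by
    intro x hx
    exact h1 (show (⟨x, hle' hx⟩ : M) ∈ (MulAut.conj g • R).subgroupOf M from hx)
  rw [hM, mem_normalizer_iff_map_conj_eq]
  exact eq_of_le_of_card_ge h2 (le_of_eq (SZ.card_conj_smul g R).symm)

theorem isNilpotent_conj {C : Subgroup G} (h : Group.IsNilpotent C) (g : G) :
    Group.IsNilpotent (MulAut.conj g • C : Subgroup G) :=
  isNilpotent_map (MulAut.conj g).toMonoidHom C

/-- The image of a Carter subgroup under a surjection is a Carter subgroup, provided Carter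
subgroups of proper subgroups are conjugate. -/
theorem isCarter_map {G' : Type*} [Group G'] (f : G →* G') (hf : Function.Surjective f)
    (hconj : ∀ L : Subgroup G, L ≠ ⊤ → ∀ C D : Subgroup L, IsCarter C → IsCarter D →
      ∃ g : L, MulAut.conj g • C = D)
    {C : Subgroup G} (hC : IsCarter C) : IsCarter (C.map f) := by
  refine ⟨?_, le_antisymm ?_ le_normalizer⟩
  · have := hC.1
    exact isNilpotent_map f C
  intro y hy
  obtain ⟨x, rfl⟩ := hf y
  have hx : MulAut.conj x • C ≤ C ⊔ f.ker := by
    rw [← Subgroup.map_le_map_iff, SZ.map_conj_smul]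
    exact le_of_eq (mem_normalizer_iff_map_conj_eq.mp hy)
  set L := C ⊔ f.ker with hL
  have hCL : C ≤ L := le_sup_left
  suffices hxL : x ∈ C ⊔ f.ker by
    rw [mem_sup_of_normal_right] at hxL
    obtain ⟨c, hc, k, hk, rfl⟩ := hxL
    exact ⟨c, hc, by rw [map_mul, MonoidHom.mem_ker.mp hk, mul_one]⟩
  by_cases hLtop : L = ⊤
  · exact hL ▸ hLtop ▸ mem_top x
  · obtain ⟨l, hl⟩ := hconj L hLtop (C.subgroupOf L) ((MulAut.conj x • C).subgroupOf L)
      (isCarter_subgroupOf hC hCL) (isCarter_subgroupOf (isCarter_conj hC x) hx)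
    have h' := congrArg (Subgroup.map L.subtype) hl
    rw [SZ.map_conj_smul, map_subgroupOf_eq_of_le hCL, map_subgroupOf_eq_of_le hx,
      Subgroup.coe_subtype] at h'
    have h2 : (l : G)⁻¹ * x ∈ C := by
      rw [← hC.2, mem_normalizer_iff_map_conj_eq]
      show MulAut.conj ((l : G)⁻¹ * x) • C = C
      rw [← SZ.conj_smul_smul, ← h', SZ.conj_smul_smul, inv_mul_cancel, map_one, one_smul]
    have := mul_mem l.2 (hCL h2)
    rwa [mul_inv_cancel_left] at this

private theorem conj_aux (n : ℕ) : ∀ (G : Type u) [Group G] [Finite G] [Group.IsSolvable G],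
    Nat.card G = n → ∀ C D : Subgroup G, IsCarter C → IsCarter D →
      ∃ g : G, MulAut.conj g • C = D := by
  induction n using Nat.strongRecOn with | ind n ih => ?_
  intro G _ _ _ hn C D hC hD
  have hsub : ∀ L : Subgroup G, L ≠ ⊤ → ∀ C D : Subgroup L, IsCarter C → IsCarter D →
      ∃ g : L, MulAut.conj g • C = D := by
    intro L hL
    exact ih _ (hn ▸ lt_of_le_of_ne (card_le_card_group L) fun e => hL (eq_top_of_card_eq L e)) L rfl
  -- conjugacy of two Carter subgroups lying in a proper subgroup
  have hin : ∀ (K A B : Subgroup G), K ≠ ⊤ → A ≤ K → B ≤ K → IsCarter A → IsCarter B →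
      ∃ g : G, MulAut.conj g • A = B := by
    intro K A B hK hA hB hA' hB'
    obtain ⟨k, hk⟩ := hsub K hK _ _ (isCarter_subgroupOf hA' hA) (isCarter_subgroupOf hB' hB)
    refine ⟨(k : G), ?_⟩
    have h' := congrArg (Subgroup.map K.subtype) hk
    rwa [SZ.map_conj_smul, map_subgroupOf_eq_of_le hA, map_subgroupOf_eq_of_le hB,
      Subgroup.coe_subtype] at h'
  have hfull : ∀ A : Subgroup G, IsCarter A → Group.IsNilpotent G → A = ⊤ := by
    intro A hA hG
    by_contra hne
    exact (normalizerCondition_of_isNilpotent A (lt_top_iff_ne_top.mpr hne)).ne hA.2.symm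
  rcases subsingleton_or_nontrivial G with hG | hG
  · exact ⟨1, Subsingleton.elim _ _⟩
  obtain ⟨N, hNn, hNne, hmin, hNc, p, hp, -, hNp⟩ := MinNormal.exists_elementary_abelian (G := G)
  have : Fact p.Prime := ⟨hp⟩
  have hf := QuotientGroup.mk'_surjective N
  have hlt : Nat.card (G ⧸ N) < n := by
    rw [← hn, ← index_eq_card, ← N.index_mul_card]
    exact lt_mul_of_one_lt_right (Nat.pos_of_ne_zero index_ne_zero_of_finite)
      (N.one_lt_card_iff_ne_bot.mpr hNne)
  obtain ⟨q, hq⟩ := ih _ hlt (G ⧸ N) rfl _ _ (isCarter_map _ hf hsub hC) (isCarter_map _ hf hsub hD)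
  obtain ⟨g, rfl⟩ := hf q
  rw [← SZ.map_conj_smul] at hq
  set C' := MulAut.conj g • C with hC'
  suffices h : ∃ x : G, MulAut.conj x • C' = D by
    obtain ⟨x, hx⟩ := h
    exact ⟨x * g, by rw [← SZ.conj_smul_smul, ← hC', hx]⟩
  have hC'c : IsCarter C' := isCarter_conj hC g
  have hCD : C' ≤ D ⊔ N := by
    have := Subgroup.map_le_map_iff.mp hq.le
    rwa [QuotientGroup.ker_mk'] at this
  have hDC : D ≤ C' ⊔ N := by
    have := Subgroup.map_le_map_iff.mp hq.ge
    rwa [QuotientGroup.ker_mk'] at this
  by_cases hK : D ⊔ N = ⊤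
  swap
  · exact hin _ C' D hK hCD le_sup_left hC'c hD
  have hK' : C' ⊔ N = ⊤ := top_le_iff.mp (hK ▸ sup_le hDC le_sup_right)
  have hcompl : ∀ A : Subgroup G, A ⊔ N = ⊤ → ¬ N ≤ A → IsComplement' N A := by
    intro A hA hNA
    have hn' : (N ⊓ A).Normal := by
      rw [← normalizer_eq_top_iff, eq_top_iff, ← hA, sup_le_iff]
      constructor
      · intro g hg
        rw [mem_normalizer_iff_map_conj_eq]
        show MulAut.conj g • (N ⊓ A) = N ⊓ A
        rw [Subgroup.smul_inf, Subgroup.Normal.conj_smul_eq_self g N,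
          Subgroup.conj_smul_eq_self_of_mem hg]
      · intro g hg
        refine centralizer_le_normalizer _ ?_
        intro y hy
        exact congrArg Subtype.val (hNc.is_comm.comm ⟨y, hy.1⟩ ⟨g, hg⟩)
    refine isComplement'_of_disjoint_and_mul_eq_univ (disjoint_iff.mpr ?_) ?_
    · rcases hmin _ hn' inf_le_left with e | e
      · exact e
      · exact absurd (inf_eq_left.mp e) hNA
    · rw [← normal_mul, sup_comm, hA, coe_top]
  by_cases hND : N ≤ D
  · have hDtop : D = ⊤ := by rwa [sup_eq_left.mpr hND] at hK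
    have hGn : Group.IsNilpotent G := Group.isNilpotent_top.mp (hDtop ▸ hD.1)
    exact ⟨1, by rw [map_one, one_smul, hfull C' hC'c hGn, hfull D hD hGn]⟩
  by_cases hNC : N ≤ C'
  · have hCtop : C' = ⊤ := by rwa [sup_eq_left.mpr hNC] at hK'
    have hGn : Group.IsNilpotent G := Group.isNilpotent_top.mp (hCtop ▸ hC'c.1)
    exact ⟨1, by rw [map_one, one_smul, hfull C' hC'c hGn, hfull D hD hGn]⟩
  set π : Set ℕ := {q | q ≠ p} with hπ
  have hHall : ∀ A : Subgroup G, IsCarter A → IsComplement' N A →
      ∃ R : Subgroup G, R ≤ A ∧ A ≤ Subgroup.normalizer (R : Set G) ∧ Cfsg.IsPiHall π R := by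
    intro A hA hc
    have := hA.1
    obtain ⟨R, hR⟩ := Hall.exists_isPiHallOf π A
    refine ⟨R, hR.1, ?_, hR.2.1, fun q hq hqπ hd => ?_⟩
    · exact (normal_subgroupOf_iff_le_normalizer hR.1).mp
        (normal_of_isPiHall (Hall.isPiHallOf_iff.mp hR).2)
    · rw [← relIndex_mul_index hR.1, hc.index_eq_card] at hd
      rcases hq.dvd_mul.mp hd with h | h
      · exact hR.2.2 q hq hqπ h
      · obtain ⟨k, hk⟩ := IsPGroup.iff_card.mp hNp
        rw [hk] at h
        exact hqπ ((Nat.prime_dvd_prime_iff_eq hq hp).mp (hq.dvd_of_dvd_pow h))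
  obtain ⟨R, hRC, hCR, hR⟩ := hHall C' hC'c (hcompl C' hK' hNC)
  obtain ⟨R', hRD, hDR, hR'⟩ := hHall D hD (hcompl D hK hND)
  obtain ⟨x, hx⟩ := Hall.conj_isPiHall hR hR'
  suffices h : ∃ y : G, MulAut.conj y • (MulAut.conj x • C') = D by
    obtain ⟨y, hy⟩ := h
    exact ⟨y * x, by rw [← SZ.conj_smul_smul, hy]⟩
  have hL : Subgroup.normalizer (R' : Set G) ≠ ⊤ := by
    intro hn'
    have : R'.Normal := normalizer_eq_top_iff.mp hn'
    have hRq : IsPGroup p (G ⧸ R') := by
      rw [IsPGroup.iff_card]
      refine ⟨_, Nat.eq_prime_pow_of_unique_prime_dvd Nat.card_pos.ne' fun {q} hq hqd => ?_⟩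
      by_contra hne
      rw [← index_eq_card] at hqd
      exact hR'.2 q hq hne hqd
    have := hRq.isNilpotent
    have hDimg := isCarter_map (QuotientGroup.mk' R') (QuotientGroup.mk'_surjective R') hsub hD
    have htop : D.map (QuotientGroup.mk' R') = ⊤ := by
      by_contra hne
      exact (normalizerCondition_of_isNilpotent _ (lt_top_iff_ne_top.mpr hne)).ne hDimg.2.symm
    apply hND
    intro a _
    have : a ∈ (D.map (QuotientGroup.mk' R')).comap (QuotientGroup.mk' R') := by rw [htop]; trivial
    rwa [comap_map_eq_self (by rwa [QuotientGroup.ker_mk'])] at this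
  refine hin _ _ D hL ?_ hDR (isCarter_conj hC'c x) hD
  rintro _ ⟨c, hc, rfl⟩
  rw [mem_normalizer_iff_map_conj_eq, ← hx]
  show MulAut.conj (x * c * x⁻¹) • MulAut.conj x • R = MulAut.conj x • R
  rw [SZ.conj_smul_smul, inv_mul_cancel_right, ← SZ.conj_smul_smul]
  congr 1
  exact mem_normalizer_iff_map_conj_eq.mp (hCR hc)

/-- **Carter**: conjugacy. -/
theorem conj_carter [Finite G] [Group.IsSolvable G] {C D : Subgroup G} (hC : IsCarter C)
    (hD : IsCarter D) : ∃ g : G, MulAut.conj g • C = D :=
  conj_aux _ G rfl C D hC hD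

private theorem exists_aux (n : ℕ) : ∀ (G : Type u) [Group G] [Finite G] [Group.IsSolvable G],
    Nat.card G = n → ∃ C : Subgroup G, IsCarter C := by
  induction n using Nat.strongRecOn with | ind n ih => ?_
  intro G _ _ _ hn
  by_cases hnil : Group.IsNilpotent G
  · exact ⟨⊤, Group.isNilpotent_top.mpr hnil, normalizer_eq_top_iff.mpr inferInstance⟩
  have : Nontrivial G := by
    by_contra h
    rw [not_nontrivial_iff_subsingleton] at h
    exact hnil inferInstance
  obtain ⟨N, hNn, hNne, hmin, hNc, p, hp, -, -⟩ := MinNormal.exists_elementary_abelian (G := G)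
  have hf := QuotientGroup.mk'_surjective N
  have hlt : Nat.card (G ⧸ N) < n := by
    rw [← hn, ← index_eq_card, ← N.index_mul_card]
    exact lt_mul_of_one_lt_right (Nat.pos_of_ne_zero index_ne_zero_of_finite)
      (N.one_lt_card_iff_ne_bot.mpr hNne)
  obtain ⟨Cb, hCbn, hCbs⟩ := ih _ hlt (G ⧸ N) rfl
  set K := Cb.comap (QuotientGroup.mk' N) with hK
  have hKn : Subgroup.normalizer (K : Set G) = K := by
    refine le_antisymm ?_ le_normalizer
    intro g hg
    rw [hK, mem_comap, ← hCbs]
    have := le_normalizer_map (QuotientGroup.mk' N) (mem_map_of_mem _ hg)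
    rwa [hK, map_comap_eq_self_of_surjective hf] at this
  by_cases hKtop : K = ⊤
  · -- `G ⧸ N` is nilpotent
    have hq : Group.IsNilpotent (G ⧸ N) := by
      have : Cb = ⊤ := by rw [← map_comap_eq_self_of_surjective hf Cb, ← hK, hKtop, map_top_of_surjective _ hf]
      rw [this] at hCbn
      exact Group.isNilpotent_top.mp hCbn
    obtain ⟨M, hM, hMn⟩ : ∃ M : Subgroup G, IsCoatom M ∧ ¬ M.Normal := by
      by_contra h
      push Not at h
      exact hnil (((Group.isNilpotent_of_finite_tfae (G := G)).out 0 2).mpr h)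
    have hNM : ¬ N ≤ M := by
      intro h
      apply hMn
      have hc : IsCoatom (M.map (QuotientGroup.mk' N)) := by
        have e : (M.map (QuotientGroup.mk' N)).comap (QuotientGroup.mk' N) = M :=
          comap_map_eq_self (by rwa [QuotientGroup.ker_mk'])
        refine ⟨fun e' => hM.1 (by rw [← e, e', comap_top]), fun L hL => ?_⟩
        have : M < L.comap (QuotientGroup.mk' N) := by
          refine lt_of_le_of_ne (e ▸ comap_mono hL.le) fun e' => hL.ne ?_
          rw [← map_comap_eq_self_of_surjective hf L, ← e']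
        rw [← map_comap_eq_self_of_surjective hf L, hM.2 _ this, map_top_of_surjective _ hf]
      have h2 : ∀ H : Subgroup (G ⧸ N), IsCoatom H → H.Normal :=
        ((Group.isNilpotent_of_finite_tfae (G := G ⧸ N)).out 0 2).mp hq
      have := h2 _ hc
      rw [← comap_map_eq_self (f := QuotientGroup.mk' N) (H := M) (by rwa [QuotientGroup.ker_mk'])]
      exact this.comap _
    have htop : N ⊔ M = ⊤ := hM.2 _ (right_lt_sup.mpr hNM)
    have hself : Subgroup.normalizer (M : Set G) = M := by
      by_contra hne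
      exact hMn (normalizer_eq_top_iff.mp (hM.2 _ (lt_of_le_of_ne le_normalizer (Ne.symm hne))))
    have hd : N ⊓ M = ⊥ := by
      have hn' : (N ⊓ M).Normal := by
        rw [← normalizer_eq_top_iff, eq_top_iff, ← htop, sup_le_iff]
        constructor
        · intro g hg
          refine centralizer_le_normalizer _ ?_
          intro y hy
          exact congrArg Subtype.val (hNc.is_comm.comm ⟨y, hy.1⟩ ⟨g, hg⟩)
        · intro g hg
          rw [mem_normalizer_iff_map_conj_eq]
          show MulAut.conj g • (N ⊓ M) = N ⊓ M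
          rw [Subgroup.smul_inf, Subgroup.Normal.conj_smul_eq_self g N,
            Subgroup.conj_smul_eq_self_of_mem hg]
      rcases hmin _ hn' inf_le_left with e | e
      · exact e
      · exact absurd (inf_eq_left.mp e) hNM
    have hc : IsComplement' N M := by
      refine isComplement'_of_disjoint_and_mul_eq_univ (disjoint_iff.mpr hd) ?_
      rw [← normal_mul, htop, coe_top]
    exact ⟨M, (Group.isNilpotent_congr hc.symm.QuotientMulEquiv).mp hq, hself⟩
  · have hltK : Nat.card K < n := by
      rw [← hn]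
      exact lt_of_le_of_ne (card_le_card_group K) fun e => hKtop (eq_top_of_card_eq K e)
    obtain ⟨C, hCn, hCs⟩ := ih _ hltK K rfl
    refine ⟨C.map K.subtype, isNilpotent_map _ _, ?_⟩
    refine le_antisymm ?_ le_normalizer
    intro g hg
    have hNK : N ≤ K := QuotientGroup.le_comap_mk' N Cb
    have hKC : K ≤ C.map K.subtype ⊔ N := by
      set f' := (QuotientGroup.mk' N).subgroupComap Cb with hf'
      have hf's : Function.Surjective f' := (QuotientGroup.mk' N).subgroupComap_surjective_of_surjective Cb hf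
      -- the image of `C` is self-normalizing in the nilpotent group `Cb`
      have hs := (isCarter_map f' hf's (fun L _ A B hA hB => conj_carter hA hB) ⟨hCn, hCs⟩).2
      have hfull : C.map f' = ⊤ := by
        by_contra hne
        exact (normalizerCondition_of_isNilpotent (C.map f') (lt_top_iff_ne_top.mpr hne)).ne hs.symm
      intro k hk
      have hk' : f' ⟨k, hk⟩ ∈ C.map f' := hfull ▸ mem_top _
      obtain ⟨c, hc, hck⟩ := hk'
      have hker : (c : G)⁻¹ * k ∈ N := by
        rw [← QuotientGroup.eq]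
        exact congrArg Subtype.val hck
      have := mul_mem_sup (mem_map_of_mem K.subtype hc) hker
      simpa using this
    have hgK : g ∈ K := by
      rw [← hKn, mem_normalizer_iff_map_conj_eq]
      show MulAut.conj g • K = K
      refine eq_of_le_of_card_ge ?_ (le_of_eq (SZ.card_conj_smul g K).symm)
      intro x hx
      obtain ⟨k, hk, rfl⟩ := hx
      have hk' := hKC hk
      rw [mem_sup_of_normal_right] at hk'
      obtain ⟨c, hc, m, hm, rfl⟩ := hk'
      show g * (c * m) * g⁻¹ ∈ K
      have h1 : g * c * g⁻¹ ∈ K := map_subtype_le C ((mem_normalizer_iff.mp hg c).mp hc)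
      have h2 : g * m * g⁻¹ ∈ K := hNK (hNn.conj_mem m hm g)
      have := mul_mem h1 h2
      simpa [mul_assoc] using this
    refine ⟨⟨g, hgK⟩, ?_, rfl⟩
    rw [SetLike.mem_coe, ← hCs, mem_normalizer_iff]
    intro y
    constructor
    · intro hy
      obtain ⟨z, hz, e⟩ := (mem_normalizer_iff.mp hg _).mp (mem_map_of_mem K.subtype hy)
      have : (⟨g, hgK⟩ : K) * y * (⟨g, hgK⟩ : K)⁻¹ = z := Subtype.ext e.symm
      rwa [this]
    · intro hy
      have := (mem_normalizer_iff.mp hg (y : G)).mpr (mem_map_of_mem K.subtype hy)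
      obtain ⟨z, hz, e⟩ := this
      rwa [← K.subtype_injective e]

/-- **Carter**: existence. -/
theorem exists_carter [Finite G] [Group.IsSolvable G] : ∃ C : Subgroup G, IsCarter C :=
  exists_aux _ G rfl

end Cfsg.Agent.Carter
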