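import Mathlib
import Cfsg.Prelude.Def_FischerSpaces

/-!
A criterion for the subspace generated by two lines to be a copy of a given line system.
-/

set_option autoImplicit false

namespace Cfsg.Agent.FischerSp

open Cfsg

variable {X Y : Type*}

theorem isomorphic_of_embedding (L : Set (Set X)) (hpl : LineSystem.IsPartialLinear L)
    (htwo : ∀ l ∈ L, ∃ x ∈ l, ∃ y ∈ l, x ≠ y) (M : Set (Set Y)) (f : Y → X)
    (hf : Function.Injective f) (hlines : ∀ q ∈ M, f '' q ∈ L)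
    (hcol : ∀ u v, u ≠ v → (∃ l ∈ L, f u ∈ l ∧ f v ∈ l) → ∃ q ∈ M, u ∈ q ∧ v ∈ q)
    (S : Set X) (hS : S ⊆ Set.range f)
    (hgen : ∀ T, LineSystem.IsSubspace L T → S ⊆ T → Set.range f ⊆ T) :
    LineSystem.Isomorphic (LineSystem.restrict L (LineSystem.span L S)) M := by
  have hline : ∀ l ∈ L, ∀ u v, u ≠ v → f u ∈ l → f v ∈ l → ∃ q ∈ M, l = f '' q := by
    intro l hl u v hne hu hv
    obtain ⟨q, hq, huq, hvq⟩ := hcol u v hne ⟨l, hl, hu, hv⟩
    exact ⟨q, hq, hpl l hl _ (hlines q hq) _ _ (fun h => hne (hf h)) hu hv ⟨u, huq, rfl⟩ ⟨v, hvq, rfl⟩⟩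
  have hsub : LineSystem.IsSubspace L (Set.range f) := by
    rintro l hl _ ⟨u, rfl⟩ _ ⟨v, rfl⟩ hne hu hv
    obtain ⟨q, -, rfl⟩ := hline l hl u v (fun h => hne (h ▸ rfl)) hu hv
    exact Set.image_subset_range f q
  have hspan : LineSystem.span L S = Set.range f :=
    Set.Subset.antisymm (Set.sInter_subset_of_mem ⟨hS, hsub⟩)
      (Set.subset_sInter fun T hT => hgen T hT.2 hT.1)
  rw [hspan]
  refine ⟨(Equiv.ofInjective f hf).symm, fun m => ?_⟩
  constructor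
  · rintro ⟨l, hl, hlr, rfl⟩
    obtain ⟨x, hx, y, hy, hne⟩ := htwo l hl
    obtain ⟨u, rfl⟩ := hlr hx
    obtain ⟨v, rfl⟩ := hlr hy
    obtain ⟨q, hq, rfl⟩ := hline l hl u v (fun h => hne (h ▸ rfl)) hx hy
    convert hq
    ext w
    constructor
    · rintro ⟨⟨_, u', rfl⟩, ⟨w', hw', he⟩, rfl⟩
      rw [Equiv.ofInjective_symm_apply]
      rwa [← hf he]
    · intro hw
      exact ⟨⟨f w, w, rfl⟩, ⟨w, hw, rfl⟩, Equiv.ofInjective_symm_apply hf w⟩
  · intro hm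
    refine ⟨f '' ((Equiv.ofInjective f hf).symm '' m), hlines _ hm, Set.image_subset_range _ _, ?_⟩
    ext ⟨_, u, rfl⟩
    constructor
    · intro h
      exact ⟨u, ⟨_, h, Equiv.ofInjective_symm_apply hf u⟩, rfl⟩
    · rintro ⟨w, ⟨⟨_, w', rfl⟩, hw', rfl⟩, he⟩
      rw [Equiv.ofInjective_symm_apply] at he
      have := hf he
      subst this
      exact hw'

end Cfsg.Agent.FischerSp
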