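/-
For `p = 3`: an abelian commutator subgroup of a `3`-group `B` of operators which acts quadratically and
satisfies the identities of a derived term of a Sylow subgroup centralizes every `2`-group that `B` normalizes.
-/
import Mathlib
import Cfsg.Agent.FPFPower.Spectral
import Cfsg.Agent.Coprime.Action
import Cfsg.Agent.Lib.HHTheoremB

set_option autoImplicit false
set_option maxHeartbeats 1000000

namespace Cfsg.Agent.HH

open Module
open scoped commutatorElement
open Cfsg.Agent.FPFPower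

variable {F : Type*} [Field F] {V : Type*} [AddCommGroup V] [Module F V] {G : Type*} [Group G]

/-- Three translates in different eigenspaces cannot cancel. -/
theorem three_weights (ρ : G →* Module.End F V) (Z : Subgroup G) (χ : G → F) (g : G) {j : ℕ} (hg : g ^ 3 ^ j = 1)
    (hZg : ∀ z ∈ Z, g * z * g⁻¹ ∈ Z) (L : Module.End F V) (hL : ∀ z ∈ Z, Commute L (ρ z)) {w : V}
    (hw : w ∈ wt ρ Z χ) (hne : ∃ z ∈ Z, χ (g * z * g⁻¹) ≠ χ z)
    (h0 : L (ρ g (ρ g w)) - (2 : F) • L (ρ g w) + L w = 0) : L w = 0 := by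
  classical
  have hinvk : ∀ (k : ℕ) (z : G), z ∈ Z → g ^ k * z * (g ^ k)⁻¹ ∈ Z := by
    intro k
    induction k with
    | zero => intro z hz; simpa
    | succ k ih =>
      intro z hz
      rw [show g ^ (k + 1) * z * (g ^ (k + 1))⁻¹ = g * (g ^ k * z * (g ^ k)⁻¹) * g⁻¹ by rw [pow_succ']; group]
      exact hZg _ (ih z hz)
  obtain ⟨z₁, hz₁, hne1⟩ := hne
  have hne2 : ∃ z ∈ Z, χ (g ^ 2 * z * (g ^ 2)⁻¹) ≠ χ z := by
    by_contra h
    push Not at h
    have hk : ∀ k : ℕ, ∀ z ∈ Z, χ (g ^ (2 * k) * z * (g ^ (2 * k))⁻¹) = χ z := by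
      intro k
      induction k with
      | zero => intro z _; simp
      | succ k ih =>
        intro z hz
        rw [show g ^ (2 * (k + 1)) * z * (g ^ (2 * (k + 1)))⁻¹ =
          g ^ (2 * k) * (g ^ 2 * z * (g ^ 2)⁻¹) * (g ^ (2 * k))⁻¹ by rw [Nat.mul_succ, pow_add]; group,
          ih _ (hinvk 2 z hz), h z hz]
    obtain ⟨i, hi⟩ : ∃ i, 3 ^ j = 2 * i + 1 := (Odd.pow ⟨1, rfl⟩ : Odd (3 ^ j)).exists_bit1
    refine hne1 ?_
    have h1 := hk (i + 1) z₁ hz₁
    rwa [show g ^ (2 * (i + 1)) = g by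
      rw [show 2 * (i + 1) = 3 ^ j + 1 by omega, pow_succ, hg, one_mul]] at h1
  let θ : Fin 3 → G → F := fun k y => χ ((g ^ (k : ℕ))⁻¹ * y * g ^ (k : ℕ))
  have hdist : ∀ a b : Fin 3, (a : ℕ) < (b : ℕ) → ∃ z ∈ Z, θ a z ≠ θ b z := by
    intro a b hab
    obtain ⟨z, hz, hne⟩ : ∃ z ∈ Z, χ (g ^ ((b : ℕ) - a) * z * (g ^ ((b : ℕ) - a))⁻¹) ≠ χ z := by
      have : (b : ℕ) - a = 1 ∨ (b : ℕ) - a = 2 := by omega
      rcases this with h | h
      · exact ⟨z₁, hz₁, by rw [h, pow_one]; exact hne1⟩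
      · rw [h]; exact hne2
    refine ⟨g ^ (b : ℕ) * z * (g ^ (b : ℕ))⁻¹, hinvk _ z hz, ?_⟩
    simp only [θ]
    rw [show (g ^ (b : ℕ))⁻¹ * (g ^ (b : ℕ) * z * (g ^ (b : ℕ))⁻¹) * g ^ (b : ℕ) = z by group,
      show (g ^ (a : ℕ))⁻¹ * (g ^ (b : ℕ) * z * (g ^ (b : ℕ))⁻¹) * g ^ (a : ℕ) =
        g ^ ((b : ℕ) - a) * z * (g ^ ((b : ℕ) - a))⁻¹ by
        rw [show g ^ (b : ℕ) = g ^ (a : ℕ) * g ^ ((b : ℕ) - a) by rw [← pow_add]; congr 1; omega]
        group]
    exact hne
  let v : Fin 3 → V := ![L w, (-2 : F) • L (ρ g w), L (ρ g (ρ g w))]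
  have hwk : ∀ k : ℕ, ∀ y ∈ Z, ρ y (ρ (g ^ k) w) = χ ((g ^ k)⁻¹ * y * g ^ k) • ρ (g ^ k) w := by
    intro k y hy
    have hy' : (g ^ k)⁻¹ * y * g ^ k ∈ Z := by
      have := hinvk ((3 ^ j - 1) * k) y hy
      rwa [show g ^ ((3 ^ j - 1) * k) = (g ^ k)⁻¹ by
        rw [eq_inv_iff_mul_eq_one, ← pow_add, show (3 ^ j - 1) * k + k = 3 ^ j * k by
          rw [Nat.sub_mul, one_mul, Nat.sub_add_cancel (Nat.le_mul_of_pos_left k (pow_pos (by norm_num) j))],
          pow_mul, hg, one_pow],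
        inv_inv] at this
    rw [← map_smul, ← mem_wt.mp hw _ hy', ← Module.End.mul_apply, ← Module.End.mul_apply, ← map_mul, ← map_mul]
    congr 2
    group
  have hLwt : ∀ (θ' : G → F) (u : V), u ∈ wt ρ Z θ' → L u ∈ wt ρ Z θ' := fun θ' u hu => mem_wt.mpr fun y hy => by
    rw [← Module.End.mul_apply, ← (hL y hy).eq, Module.End.mul_apply, mem_wt.mp hu y hy, map_smul]
  have hv : ∀ k ∈ (Finset.univ : Finset (Fin 3)), v k ∈ wt ρ Z (θ k) := by
    intro k _
    fin_cases k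
    · refine hLwt _ w (mem_wt.mpr fun y hy => ?_)
      simpa [θ] using mem_wt.mp hw y hy
    · refine Submodule.smul_mem _ _ (hLwt _ _ (mem_wt.mpr fun y hy => ?_))
      simpa [θ] using hwk 1 y hy
    · refine hLwt _ _ (mem_wt.mpr fun y hy => ?_)
      have := hwk 2 y hy
      rw [show ρ (g ^ 2) w = ρ g (ρ g w) by rw [pow_two, map_mul, Module.End.mul_apply]] at this
      simpa [θ] using this
  have h := eq_zero_of_sum_eq_zero ρ Z θ Finset.univ (fun a _ b _ hab => ?_) v hv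
    (by rw [Fin.sum_univ_three]; simp only [v]; simp; rw [← h0]; abel) 0 (Finset.mem_univ _)
  · simpa [v] using h
  · rcases Nat.lt_or_gt_of_ne (Fin.val_ne_of_ne hab) with h | h
    · exact hdist a b h
    · obtain ⟨z, hz, hne⟩ := hdist b a h
      exact ⟨z, hz, Ne.symm hne⟩

theorem four_le_card {M : Type*} [Group M] [Finite M] (hM : IsPGroup 2 M) (P : Subgroup M) (φ : MulAut M)
    (hP : ∀ u ∈ P, φ u ∈ P) (hfix : ∀ u ∈ P, φ u = u → u = 1) {u : M} (hu : u ∈ P) (hu1 : u ≠ 1) :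
    4 ≤ Nat.card P := by
  classical
  obtain ⟨k, hk⟩ := IsPGroup.iff_card.mp (hM.to_subgroup P)
  have h3 : 3 ≤ Nat.card P := by
    haveI := Fintype.ofFinite P
    let f : Fin 3 → P := ![1, ⟨u, hu⟩, ⟨φ u, hP u hu⟩]
    have hf : Function.Injective f := by
      intro a b h
      have h' := congrArg Subtype.val h
      fin_cases a <;> fin_cases b <;> simp [f] at h' <;> first
        | rfl
        | exact absurd h' hu1
        | exact absurd h'.symm hu1
        | exact absurd (φ.injective (h'.trans (map_one φ).symm)) hu1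
        | exact absurd (φ.injective (h'.symm.trans (map_one φ).symm)) hu1
        | exact absurd (hfix u hu h') hu1
        | exact absurd (hfix u hu h'.symm) hu1
    simpa using Nat.card_le_card_of_injective f hf
  rw [hk] at h3 ⊢
  rcases k with _ | _ | k
  · simp at h3
  · simp at h3
  · exact le_trans (by norm_num : 4 ≤ 2 ^ 2) (Nat.pow_le_pow_right (by norm_num) (by omega))

/-- The main lemma for `p = 3`. -/
theorem centralizes_of_quadratic_three [IsAlgClosed F] [CharP F 3] [Finite G] [FiniteDimensional F V]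
    (ρ : G →* Module.End F V) (hinj : Function.Injective ρ) (R₀ B : Subgroup G) (hR₀ : IsPGroup 2 R₀)
    (hB : IsPGroup 3 B) (hBR : B ≤ Subgroup.normalizer (R₀ : Set G))
    (hAab : ∀ a ∈ ⁅B, B⁆, ∀ a' ∈ ⁅B, B⁆, Commute a a')
    (hquad : ∀ a ∈ ⁅B, B⁆, (ρ a - 1) ^ 2 = 0)
    (hcub : ∀ a ∈ ⁅B, B⁆, ∀ b ∈ B, (ρ a - 1) * (ρ b - 1) ^ 2 = 0) :
    ⁅B, B⁆ ≤ Subgroup.centralizer (R₀ : Set G) := by
  classical
  haveI : Fact (Nat.Prime 3) := ⟨Nat.prime_three⟩
  haveI : Fact (Nat.Prime 2) := ⟨Nat.prime_two⟩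
  set A := ⁅B, B⁆ with hAdef
  have hAB : A ≤ B := Subgroup.commutator_le_self B
  have h2F : (2 : F) ≠ 0 := fun h => by
    have h1 : ((2 : ℕ) : F) = 0 := by exact_mod_cast h
    rw [CharP.cast_eq_zero_iff F 3] at h1
    norm_num at h1
  have ha3 : ∀ a ∈ A, a ^ 3 = 1 := by
    intro a ha
    refine hinj ?_
    have h1 : (ρ a - 1) ^ 3 = 0 := pow_eq_zero_of_le (by norm_num) (hquad a ha)
    haveI : CharP (Module.End F V) 3 ∨ Subsingleton (Module.End F V) := by
      rcases subsingleton_or_nontrivial (Module.End F V) with h | h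
      · exact Or.inr h
      · exact Or.inl (charP_of_injective_algebraMap (algebraMap F (Module.End F V)).injective 3)
    rcases this with h | h
    · rw [map_pow, map_one, ← sub_eq_zero, ← h1, sub_pow_char_of_commute 3 (Commute.one_right _), one_pow]
    · exact Subsingleton.elim _ _
  by_contra hnot
  -- a minimal counterexample inside `R₀`
  obtain ⟨R, hRR₀, hRB, hRA, hmin⟩ : ∃ R : Subgroup G, R ≤ R₀ ∧ B ≤ Subgroup.normalizer (R : Set G) ∧
      ¬ A ≤ Subgroup.centralizer (R : Set G) ∧ ∀ S : Subgroup G, S ≤ R → B ≤ Subgroup.normalizer (S : Set G) →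
        ¬ A ≤ Subgroup.centralizer (S : Set G) → S = R := by
    have hex : ∃ m, ∃ R : Subgroup G, Nat.card R = m ∧ R ≤ R₀ ∧ B ≤ Subgroup.normalizer (R : Set G) ∧
        ¬ A ≤ Subgroup.centralizer (R : Set G) := ⟨_, R₀, rfl, le_rfl, hBR, hnot⟩
    obtain ⟨R, hR, h1, h2, h3⟩ := Nat.find_spec hex
    refine ⟨R, h1, h2, h3, fun S h4 h5 h6 => Subgroup.eq_of_le_of_card_ge h4 ?_⟩
    rw [hR]
    exact Nat.find_le ⟨S, rfl, h4.trans h1, h5, h6⟩
  have hR2 : IsPGroup 2 R := hR₀.to_le hRR₀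
  have hcop : ∀ {T : Subgroup G}, T ≤ B → (Nat.card T).Coprime (Nat.card R) := by
    intro T hT
    obtain ⟨i, hi⟩ := IsPGroup.iff_card.mp (hB.to_le hT)
    obtain ⟨k, hk⟩ := IsPGroup.iff_card.mp hR2
    rw [hi, hk]
    exact Nat.Coprime.pow i k (by norm_num)
  have hAR : A ≤ Subgroup.normalizer (R : Set G) := hAB.trans hRB
  have hBA : B ≤ Subgroup.normalizer (A : Set G) := fun b hb =>
    Coprime.normalizer_inf_le_normalizer_commutator B B ⟨Subgroup.le_normalizer hb, Subgroup.le_normalizer hb⟩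
  have hfixed : ∀ S : Subgroup G, S ≤ R → S ≠ R → B ≤ Subgroup.normalizer (S : Set G) →
      ∀ s ∈ S, ∀ a ∈ A, Commute s a := by
    intro S hS hne hSB s hs a ha
    by_contra hc
    exact hne (hmin S hS hSB fun h => hc (Subgroup.mem_centralizer_iff.mp (h ha) s hs))
  -- `R = [R, A]`
  have hRAR : ⁅R, A⁆ = R := by
    refine hmin _ (Coprime.commutator_le_of_le_normalizer hAR)
      (fun b hb => Coprime.normalizer_inf_le_normalizer_commutator R A ⟨hRB hb, hBA hb⟩) fun hc => hRA ?_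
    refine Coprime.le_centralizer_of_commutator_commutator_eq_bot hAR (hcop hAB) ?_
    rw [Subgroup.commutator_eq_bot_iff_le_centralizer, Subgroup.le_centralizer_iff]
    exact hc
  -- fixed normal subgroups are central
  have hcentral : ∀ S : Subgroup G, S ≤ R → (R : Subgroup G) ≤ Subgroup.normalizer (S : Set G) →
      (∀ s ∈ S, ∀ a ∈ A, Commute s a) → S ≤ Subgroup.centralizer (R : Set G) := by
    intro S hSR hRS hfix
    have hSA : ⁅S, A⁆ = ⊥ := by
      rw [Subgroup.commutator_eq_bot_iff_le_centralizer]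
      exact fun s hs => Subgroup.mem_centralizer_iff.mpr fun a ha => (hfix s hs a ha).symm.eq
    have h1 : ⁅⁅A, S⁆, R⁆ = ⊥ := by rw [Subgroup.commutator_comm A, hSA, Subgroup.commutator_bot_left]
    have h2 : ⁅⁅S, R⁆, A⁆ = ⊥ := by
      rw [← le_bot_iff, ← hSA]
      refine Subgroup.commutator_mono ?_ le_rfl
      rw [← Subgroup.le_normalizer_iff_commutator_le_left]
      exact hRS
    have h3 : ⁅⁅R, A⁆, S⁆ = ⊥ := Subgroup.commutator_commutator_eq_bot_of_rotate h1 h2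
    rw [hRAR, Subgroup.commutator_eq_bot_iff_le_centralizer, Subgroup.le_centralizer_iff] at h3
    exact h3
  set Z := R ⊓ Subgroup.centralizer (R : Set G) with hZdef
  have hZB : ∀ b ∈ B, ∀ z ∈ Z, b * z * b⁻¹ ∈ Z := fun b hb z hz => by
    refine ⟨(Subgroup.mem_normalizer_iff.mp (hRB hb) z).mp hz.1, Subgroup.mem_centralizer_iff.mpr fun r hr => ?_⟩
    have h1 : b⁻¹ * r * b ∈ R := by
      have := (Subgroup.mem_normalizer_iff.mp (inv_mem (hRB hb)) r).mp hr
      rwa [inv_inv] at this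
    have h2 := Subgroup.mem_centralizer_iff.mp hz.2 _ h1
    calc r * (b * z * b⁻¹) = b * ((b⁻¹ * r * b) * z) * b⁻¹ := by group
      _ = b * (z * (b⁻¹ * r * b)) * b⁻¹ := by rw [h2]
      _ = b * z * b⁻¹ * r := by group
  have hnormB : ∀ S : Subgroup G, (∀ b ∈ B, ∀ s ∈ S, b * s * b⁻¹ ∈ S) → B ≤ Subgroup.normalizer (S : Set G) := by
    intro S h b hb
    rw [Subgroup.mem_normalizer_iff]
    refine fun s => ⟨h b hb s, fun hs => ?_⟩
    have := h b⁻¹ (inv_mem hb) _ hs
    rwa [show b⁻¹ * (b * s * b⁻¹) * b⁻¹⁻¹ = s by group] at this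
  -- commutators of `R` are central
  have hder : ⁅R, R⁆ ≠ R := by
    intro he
    have hnil : Group.IsNilpotent R := hR2.isNilpotent
    have hsol : Group.IsSolvable R := inferInstance
    obtain ⟨m, hm⟩ := hsol.solvable
    have key : ∀ i, (derivedSeries R i).map R.subtype = R := by
      intro i
      induction i with
      | zero => simp [← MonoidHom.range_eq_map]
      | succ i ih => rw [derivedSeries_succ, Subgroup.map_commutator, ih, he]
    refine hRA ?_
    rw [← key m, hm, Subgroup.map_bot]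
    exact fun a _ => Subgroup.mem_centralizer_iff.mpr (by simp)
  have hRR : ∀ r ∈ R, ∀ s ∈ R, ⁅r, s⁆ ∈ Z := by
    intro r hr s hs
    have hBd : B ≤ Subgroup.normalizer (⁅R, R⁆ : Subgroup G) := fun b hb =>
      Coprime.normalizer_inf_le_normalizer_commutator R R ⟨hRB hb, hRB hb⟩
    have h1 := hcentral ⁅R, R⁆ (Subgroup.commutator_le_self R) (fun g hg =>
      Coprime.normalizer_inf_le_normalizer_commutator R R ⟨Subgroup.le_normalizer hg, Subgroup.le_normalizer hg⟩)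
      (hfixed _ (Subgroup.commutator_le_self R) hder hBd)
    exact ⟨Subgroup.commutator_le_self R (Subgroup.commutator_mem_commutator hr hs),
      h1 (Subgroup.commutator_mem_commutator hr hs)⟩
  have hZc : ∀ z ∈ Z, ∀ u ∈ R, u * z = z * u := fun z hz u hu => Subgroup.mem_centralizer_iff.mp hz.2 u hu
  have hbig : ∀ S : Subgroup G, S ≤ R → Z ≤ S → S ≠ R → (∀ b ∈ B, ∀ s ∈ S, b * s * b⁻¹ ∈ S) → S ≤ Z := by
    intro S hSR hZS hne hSB s hs
    refine ⟨hSR hs, hcentral S hSR (fun r hr => ?_) (hfixed S hSR hne (hnormB S hSB)) hs⟩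
    rw [Subgroup.mem_normalizer_iff]
    intro t
    refine ⟨fun ht => ?_, fun ht => ?_⟩
    · rw [show r * t * r⁻¹ = ⁅r, t⁆ * t by simp only [commutatorElement_def]; group]
      exact mul_mem (hZS (hRR r hr t (hSR ht))) ht
    · have h1 := mul_mem (hZS (hRR r⁻¹ (inv_mem hr) _ (hSR ht))) ht
      rwa [show ⁅r⁻¹, r * t * r⁻¹⁆ * (r * t * r⁻¹) = t by simp only [commutatorElement_def]; group] at h1
  have hRK : (Nat.card R : F) ≠ 0 := by
    obtain ⟨k, hk⟩ := IsPGroup.iff_card.mp hR2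
    rw [hk, Nat.cast_pow, Nat.cast_ofNat]
    exact pow_ne_zero _ h2F
  have hpowR : ∀ r ∈ R, r ^ Nat.card R = 1 := fun r hr =>
    orderOf_dvd_iff_pow_eq_one.mp (Subgroup.orderOf_dvd_natCard R hr)
  -- `Z` is fixed by `A` unless `R` is abelian
  have hmoved : ∀ (S : Subgroup G) (ψ : G → F) (w : V), w ≠ 0 → w ∈ wt ρ S ψ → ∀ a ∈ A,
      (∀ s ∈ S, a * s * a⁻¹ ∈ S) → ∀ s ∈ S, ψ (a * s * a⁻¹) = ψ s := by
    intro S ψ w hw0 hw a ha hSa s hs
    by_contra hne
    refine hw0 ?_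
    have := three_weights ρ S ψ a (j := 1) (by rw [pow_one]; exact ha3 a ha) hSa 1 (fun z _ => Commute.one_left _) hw
      ⟨s, hs, hne⟩ (by
        have h1 := LinearMap.congr_fun (hquad a ha) w
        simp only [pow_two, Module.End.mul_apply, LinearMap.sub_apply, Module.End.one_apply, map_sub,
          LinearMap.zero_apply] at h1
        simp only [Module.End.one_apply, two_smul]
        rw [← h1]; abel)
    simpa using this
  by_cases hab : Z = R
  · -- the abelian case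
    refine hRA fun a ha => Subgroup.mem_centralizer_iff.mpr fun r hr => ?_
    by_contra hne
    set z₀ := r⁻¹ * (a * r * a⁻¹) with hz₀
    have hz₀R : z₀ ∈ R := mul_mem (inv_mem hr) ((Subgroup.mem_normalizer_iff.mp (hAR ha) r).mp hr)
    obtain ⟨u, hu⟩ : ∃ u, ρ z₀ u ≠ u := by
      by_contra h
      push Not at h
      have h1 : z₀ = 1 := hinj (LinearMap.ext fun u => by rw [h, map_one, Module.End.one_apply])
      rw [hz₀, inv_mul_eq_one, eq_mul_inv_iff_mul_eq] at h1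
      exact hne h1
    obtain ⟨χ, w, -, hw0, hw, hχ⟩ := exists_weight ρ Z ⊤ (fun _ _ _ _ => trivial)
      (fun x hx y hy v _ => by
        rw [← Module.End.mul_apply, ← map_mul, hZc y hy x hx.1, map_mul, Module.End.mul_apply])
      (z₀ := z₀) (by rw [hab]; exact hz₀R) (hpowR z₀ hz₀R) hRK ⟨u, trivial, hu⟩
    refine hχ ?_
    rw [hz₀, char_mul hw hw0 (by rw [hab]; exact inv_mem hr) (hZB a (hAB ha) r (by rw [hab]; exact hr)),
      hmoved Z χ w hw0 hw a ha (hZB a (hAB ha)) r (by rw [hab]; exact hr),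
      ← char_mul hw hw0 (by rw [hab]; exact inv_mem hr) (by rw [hab]; exact hr), inv_mul_cancel, char_one hw hw0]
  -- the non-abelian case
  obtain ⟨a₀, ha₀, b₀, hb₀, hab₀⟩ : ∃ r ∈ R, ∃ s ∈ R, ⁅r, s⁆ ≠ 1 := by
    by_contra h
    push Not at h
    exact hab (inf_eq_left.mpr fun r hr => Subgroup.mem_centralizer_iff.mpr fun s hs =>
      (commutatorElement_eq_one_iff_mul_comm.mp (h s hs r hr)))
  have hZfix : ∀ z ∈ Z, ∀ a ∈ A, Commute z a := hfixed Z inf_le_left hab (hnormB Z hZB)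
  obtain ⟨u, hu⟩ : ∃ u, ρ ⁅a₀, b₀⁆ u ≠ u := by
    by_contra h
    push Not at h
    exact hab₀ (hinj (LinearMap.ext fun u => by rw [h, map_one, Module.End.one_apply]))
  obtain ⟨χ, w, -, hw0, hw, hχ⟩ := exists_weight ρ Z ⊤ (fun _ _ _ _ => trivial)
    (fun x hx y hy v _ => by
      rw [← Module.End.mul_apply, ← map_mul, hZc y hy x hx.1, map_mul, Module.End.mul_apply])
    (hRR a₀ ha₀ b₀ hb₀) (hpowR _ (hRR a₀ ha₀ b₀ hb₀).1) hRK ⟨u, trivial, hu⟩
  set U := wt ρ Z χ with hUdef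
  have hUR : ∀ r ∈ R, ∀ v ∈ U, ρ r v ∈ U := fun r hr v hv => mem_wt.mpr fun z hz => by
    rw [← Module.End.mul_apply, ← map_mul, ← hZc z hz r hr, map_mul, Module.End.mul_apply, mem_wt.mp hv z hz, map_smul]
  have hUA : ∀ a ∈ A, ∀ v ∈ U, ρ a v ∈ U := fun a ha v hv => mem_wt.mpr fun z hz => by
    rw [← Module.End.mul_apply, ← map_mul, (hZfix z hz a ha).eq, map_mul, Module.End.mul_apply, mem_wt.mp hv z hz,
      map_smul]
  have hUcomm : ∀ r ∈ R, ∀ s ∈ R, ∀ v ∈ U, ρ r (ρ s v) = χ ⁅r, s⁆ • ρ s (ρ r v) := fun r hr s hs v hv => by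
    rw [← mem_wt.mp (hUR s hs _ (hUR r hr v hv)) _ (hRR r hr s hs), ← Module.End.mul_apply, ← Module.End.mul_apply,
      ← Module.End.mul_apply, ← map_mul, ← map_mul, ← map_mul]
    congr 2
    simp only [commutatorElement_def]; group
  have hχ1 : χ 1 = 1 := char_one hw hw0
  have hbil : ∀ {r s t : G}, r ∈ R → s ∈ R → t ∈ R → χ ⁅r * s, t⁆ = χ ⁅r, t⁆ * χ ⁅s, t⁆ := by
    intro r s t hr hs ht
    rw [← char_mul hw hw0 (hRR r hr t ht) (hRR s hs t ht)]
    congr 1
    have h' := hZc _ (hRR s hs t ht) (t * r⁻¹ * t⁻¹) (mul_mem (mul_mem ht (inv_mem hr)) (inv_mem ht))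
    calc ⁅r * s, t⁆ = r * (⁅s, t⁆ * (t * r⁻¹ * t⁻¹)) := by simp only [commutatorElement_def]; group
      _ = r * ((t * r⁻¹ * t⁻¹) * ⁅s, t⁆) := by rw [h']
      _ = ⁅r, t⁆ * ⁅s, t⁆ := by simp only [commutatorElement_def]; group
  have hswap : ∀ {r s : G}, r ∈ R → s ∈ R → χ ⁅r, s⁆ = 1 → χ ⁅s, r⁆ = 1 := by
    intro r s hr hs h
    have := char_mul hw hw0 (hRR r hr s hs) (hRR s hs r hr)
    rw [← commutatorElement_inv r s, mul_inv_cancel, hχ1, h, one_mul, commutatorElement_inv] at this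
    exact this.symm
  -- the annihilator of an element
  let ann : G → Subgroup G := fun t =>
    { carrier := {r | r ∈ R ∧ (t ∈ R → χ ⁅r, t⁆ = 1)}
      one_mem' := ⟨one_mem R, fun _ => by rw [commutatorElement_one_left, hχ1]⟩
      mul_mem' := fun {r s} hr hs => ⟨mul_mem hr.1 hs.1, fun ht => by rw [hbil hr.1 hs.1 ht, hr.2 ht, hs.2 ht, one_mul]⟩
      inv_mem' := fun {r} hr => ⟨inv_mem hr.1, fun ht => by
        have := hbil (inv_mem hr.1) hr.1 ht
        rw [inv_mul_cancel, commutatorElement_one_left, hχ1, hr.2 ht, mul_one] at this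
        exact this.symm⟩ }
  have hann : ∀ t r, r ∈ ann t ↔ r ∈ R ∧ (t ∈ R → χ ⁅r, t⁆ = 1) := fun t r => Iff.rfl
  -- some element of `A` moves `U`
  obtain ⟨a₁, ha₁, v₁, hv₁, hav₁⟩ : ∃ a ∈ A, ∃ v ∈ U, ρ a v ≠ v := by
    by_contra h
    push Not at h
    let T : Subgroup G :=
      { carrier := {g | ∀ v ∈ U, ρ g v = v}
        one_mem' := fun v _ => by rw [map_one, Module.End.one_apply]
        mul_mem' := fun {g g'} hg hg' v hv => by rw [map_mul, Module.End.mul_apply, hg' v hv, hg v hv]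
        inv_mem' := fun {g} hg v hv => by
          calc ρ g⁻¹ v = ρ g⁻¹ (ρ g v) := by rw [hg v hv]
            _ = v := rho_inv_apply ρ g v }
    have hle : ⁅R, A⁆ ≤ T := by
      rw [Subgroup.commutator_le]
      intro r hr a ha v hv
      have ha' : ρ a⁻¹ v = v := h a⁻¹ (inv_mem ha) v hv
      rw [commutatorElement_def, map_mul, Module.End.mul_apply, ha', map_mul, Module.End.mul_apply, map_mul,
        Module.End.mul_apply, h a ha _ (hUR _ (inv_mem hr) v hv), rho_apply_inv]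
    rw [hRAR] at hle
    refine hχ ?_
    have h1 := hle (hRR a₀ ha₀ b₀ hb₀).1 w hw
    rw [mem_wt.mp hw _ (hRR a₀ ha₀ b₀ hb₀)] at h1
    exact smul_left_injective F hw0 (h1.trans (one_smul F w).symm)
  -- so `B` fixes `χ`
  have hχB : ∀ b ∈ B, ∀ z ∈ Z, χ (b * z * b⁻¹) = χ z := by
    intro b hb z hz
    by_contra hne
    obtain ⟨j, hj⟩ := hB ⟨b, hb⟩
    refine hav₁ (sub_eq_zero.mp ?_)
    have := three_weights ρ Z χ b (j := j) (by simpa using congrArg Subtype.val hj) (hZB b hb) (ρ a₁ - 1)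
      (fun y hy => ((show Commute y a₁ from hZfix y hy a₁ ha₁).map ρ).symm.sub_left (Commute.one_left _)) hv₁
      ⟨z, hz, hne⟩ (by
        have h1 := LinearMap.congr_fun (hcub a₁ ha₁ b hb) v₁
        simp only [pow_two, Module.End.mul_apply, LinearMap.sub_apply, Module.End.one_apply, map_sub,
          LinearMap.zero_apply] at h1
        simp only [LinearMap.sub_apply, Module.End.one_apply, two_smul]
        rw [← h1]; abel)
    simpa using this
  have hrad : ∀ r ∈ R, (∀ s ∈ R, χ ⁅r, s⁆ = 1) → r ∈ Z := by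
    let Rad : Subgroup G :=
      { carrier := {r | r ∈ R ∧ ∀ s ∈ R, χ ⁅r, s⁆ = 1}
        one_mem' := ⟨one_mem R, fun s _ => by rw [commutatorElement_one_left, hχ1]⟩
        mul_mem' := fun {r s} hr hs => ⟨mul_mem hr.1 hs.1, fun t ht => by rw [hbil hr.1 hs.1 ht, hr.2 t ht, hs.2 t ht, one_mul]⟩
        inv_mem' := fun {r} hr => ⟨inv_mem hr.1, fun t ht => by
          have := hbil (inv_mem hr.1) hr.1 ht
          rw [inv_mul_cancel, commutatorElement_one_left, hχ1, hr.2 t ht, mul_one] at this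
          exact this.symm⟩ }
    have hRad : Rad ≤ Z := by
      refine hbig Rad (fun r hr => hr.1) (fun z hz => ⟨hz.1, fun s hs => ?_⟩) (fun h => ?_) ?_
      · rw [commutatorElement_eq_one_iff_mul_comm.mpr (hZc z hz s hs).symm, hχ1]
      · exact hχ ((h.ge ha₀ : a₀ ∈ Rad).2 b₀ hb₀)
      · intro b hb r hr
        refine ⟨(Subgroup.mem_normalizer_iff.mp (hRB hb) r).mp hr.1, fun s hs => ?_⟩
        have hs' : b⁻¹ * s * b ∈ R := by
          have := (Subgroup.mem_normalizer_iff.mp (inv_mem (hRB hb)) s).mp hs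
          rwa [inv_inv] at this
        rw [show ⁅b * r * b⁻¹, s⁆ = b * ⁅r, b⁻¹ * s * b⁆ * b⁻¹ by simp only [commutatorElement_def]; group,
          hχB b hb _ (hRR r hr.1 _ hs'), hr.2 _ hs']
    exact fun r hr h => hRad ⟨hr, h⟩
  have htriv : ∀ r ∈ R, (∀ v ∈ U, ρ r v = v) → r ∈ Z := by
    intro r hr h
    refine hrad r hr fun s hs => ?_
    have h1 := hUcomm r hr s hs w hw
    rw [h _ (hUR s hs w hw), h w hw] at h1
    by_contra hne
    refine hne (smul_left_injective F (m := ρ s w) (fun h0 => hw0 (by rw [← rho_inv_apply ρ s w, h0, map_zero]))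
      (h1.symm.trans (one_smul F (ρ s w)).symm))
  -- squares lie in `Z`
  have hsq : ∀ r ∈ R, r * r ∈ Z := by
    have hmulsq : ∀ r ∈ R, ∀ s ∈ R, (r * s) * (r * s) * ((r * r) * (s * s))⁻¹ ∈ Z := by
      intro r hr s hs
      have h1 := hRR s hs r hr
      have h2 : (r * s) * (r * s) * ((r * r) * (s * s))⁻¹ = r * ⁅s, r⁆ * r⁻¹ := by
        simp only [commutatorElement_def]; group
      rw [h2, hZc _ h1 r hr, mul_inv_cancel_right]
      exact h1
    let Sq : Subgroup G :=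
      { carrier := {g | g ∈ R ∧ ∃ r ∈ R, g * (r * r)⁻¹ ∈ Z}
        one_mem' := ⟨one_mem R, 1, one_mem R, by simp⟩
        mul_mem' := by
          rintro g g' ⟨hg, r, hr, hgr⟩ ⟨hg', s, hs, hgs⟩
          refine ⟨mul_mem hg hg', r * s, mul_mem hr hs, ?_⟩
          have e : g * g' * ((r * s) * (r * s))⁻¹ =
              (g * (r * r)⁻¹) * ((r * r) * (g' * (s * s)⁻¹) * (r * r)⁻¹) * ((r * s) * (r * s) * ((r * r) * (s * s))⁻¹)⁻¹ := by
            group
          rw [e, hZc _ hgs (r * r) (mul_mem hr hr), mul_inv_cancel_right]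
          exact mul_mem (mul_mem hgr hgs) (inv_mem (hmulsq r hr s hs))
        inv_mem' := by
          rintro g ⟨hg, r, hr, hgr⟩
          refine ⟨inv_mem hg, r⁻¹, inv_mem hr, ?_⟩
          have e : g⁻¹ * (r⁻¹ * r⁻¹)⁻¹ = (r * r)⁻¹ * (g * (r * r)⁻¹)⁻¹ * (r * r) := by simp [mul_assoc]
          rw [e, hZc _ (inv_mem hgr) (r * r)⁻¹ (inv_mem (mul_mem hr hr)), inv_mul_cancel_right]
          exact inv_mem hgr }
    intro r hr
    refine hbig Sq (fun g hg => hg.1) (fun z hz => ⟨hz.1, 1, one_mem R, by simpa⟩) ?_ ?_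
      ⟨mul_mem hr hr, r, hr, by simp⟩
    · intro h
      -- otherwise squaring is bijective modulo `Z`
      let f : R ⧸ Z.subgroupOf R → R ⧸ Z.subgroupOf R := fun x => QuotientGroup.mk (x.out * x.out)
      haveI : (Z.subgroupOf R).Normal := ⟨fun z hz g => by
        rw [Subgroup.mem_subgroupOf] at hz ⊢
        show (g : G) * z * (g : G)⁻¹ ∈ Z
        rw [hZc _ hz g g.2, mul_inv_cancel_right]; exact hz⟩
      have hsurj : Function.Surjective f := by
        intro x
        induction x using QuotientGroup.induction_on with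
        | H g =>
          obtain ⟨-, s, hs, hgs⟩ := h.ge g.2
          refine ⟨QuotientGroup.mk ⟨s, hs⟩, ?_⟩
          show QuotientGroup.mk (Quotient.out _ * Quotient.out _) = _
          rw [QuotientGroup.mk_mul, QuotientGroup.out_eq', ← QuotientGroup.mk_mul, eq_comm, ← div_eq_one,
            ← QuotientGroup.mk_div, QuotientGroup.eq_one_iff, Subgroup.mem_subgroupOf]
          simpa [div_eq_mul_inv] using hgs
      have hinjf : Function.Injective f := Finite.injective_iff_surjective.mpr hsurj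
      have hne : Z.subgroupOf R ≠ ⊤ := fun htop => hab (le_antisymm inf_le_left (Subgroup.subgroupOf_eq_top.mp htop))
      obtain ⟨k, hk⟩ := IsPGroup.iff_card.mp (hR2.to_quotient (Z.subgroupOf R))
      have hk0 : k ≠ 0 := fun h0 => hne (Subgroup.index_eq_one.mp (by rw [Subgroup.index, hk, h0, pow_zero]))
      obtain ⟨x, hx⟩ := exists_prime_orderOf_dvd_card' 2 (hk ▸ dvd_pow_self 2 hk0)
      have h2 : x * x = 1 := by rw [← pow_two, ← hx, pow_orderOf_eq_one]
      have hfx : ∀ y : R ⧸ Z.subgroupOf R, f y = y * y := fun y => by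
        show QuotientGroup.mk (y.out * y.out) = _
        rw [QuotientGroup.mk_mul, QuotientGroup.out_eq']
      have : x = 1 := hinjf (by rw [hfx, hfx, h2, one_mul])
      rw [this, orderOf_one] at hx
      norm_num at hx
    · rintro b hb g ⟨hg, s, hs, hgs⟩
      refine ⟨(Subgroup.mem_normalizer_iff.mp (hRB hb) g).mp hg, b * s * b⁻¹,
        (Subgroup.mem_normalizer_iff.mp (hRB hb) s).mp hs, ?_⟩
      have := hZB b hb _ hgs
      rwa [show b * (g * (s * s)⁻¹) * b⁻¹ = b * g * b⁻¹ * (b * s * b⁻¹ * (b * s * b⁻¹))⁻¹ by group] at this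
  haveI hZn : (Z.subgroupOf R).Normal := ⟨fun z hz g => by
    rw [Subgroup.mem_subgroupOf] at hz ⊢
    show (g : G) * z * (g : G)⁻¹ ∈ Z
    rw [hZc _ hz g g.2, mul_inv_cancel_right]; exact hz⟩
  -- the action on `M = R / Z`
  have hcopZ : ∀ a ∈ A, ∀ r ∈ R, ⁅⁅r, a⁆, a⁆ ∈ Z → ⁅r, a⁆ ∈ Z := by
    intro a ha r hr h
    set c := ⁅r, a⁆ with hc
    have hcR : c ∈ R := by
      have h1 : a * r⁻¹ * a⁻¹ ∈ R := (Subgroup.mem_normalizer_iff.mp (hAR ha) r⁻¹).mp (inv_mem hr)
      rw [hc, commutatorElement_def, show r * a * r⁻¹ * a⁻¹ = r * (a * r⁻¹ * a⁻¹) by group]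
      exact mul_mem hr h1
    set e := ⁅c, a⁆ with he
    have h1 : a * r * a⁻¹ = c⁻¹ * r := by rw [hc, commutatorElement_def]; group
    have h2 : a * c * a⁻¹ = e⁻¹ * c := by rw [he, commutatorElement_def]; group
    have he' : a * e * a⁻¹ = e := by rw [← (hZfix e h a ha).eq, mul_inv_cancel_right]
    have h5 : a * (c⁻¹ * r) * a⁻¹ = c⁻¹ * e * (c⁻¹ * r) := by
      rw [show a * (c⁻¹ * r) * a⁻¹ = (a * c * a⁻¹)⁻¹ * (a * r * a⁻¹) by group, h1, h2]; group
    have h6 : a * (a * (a * r * a⁻¹) * a⁻¹) * a⁻¹ = r := by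
      rw [show a * (a * (a * r * a⁻¹) * a⁻¹) * a⁻¹ = a ^ 3 * r * (a ^ 3)⁻¹ by rw [pow_three']; group, ha3 a ha]; simp
    rw [h1, h5, show a * (c⁻¹ * e * (c⁻¹ * r)) * a⁻¹ = (a * c * a⁻¹)⁻¹ * (a * e * a⁻¹) * (a * (c⁻¹ * r) * a⁻¹) by group,
      h2, h5, he', show (e⁻¹ * c)⁻¹ * e * (c⁻¹ * e * (c⁻¹ * r)) = c⁻¹ * e * e * (c⁻¹ * e) * c⁻¹ * r by group,
      mul_eq_right] at h6
    have hce : ∀ t ∈ R, t * e = e * t := fun t ht => hZc e h t ht
    have h7 : c * (c * c) = e * e * e := by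
      have hc1 : c * e = e * c := hce c hcR
      have h8 : c⁻¹ * e * e * (c⁻¹ * e) * c⁻¹ = e * e * e * (c * (c * c))⁻¹ := by
        have hcomm : Commute c⁻¹ e := (show Commute c e from hc1).inv_left
        calc c⁻¹ * e * e * (c⁻¹ * e) * c⁻¹ = (c⁻¹ * (e * e)) * (c⁻¹ * e) * c⁻¹ := by group
          _ = ((e * e) * c⁻¹) * (e * c⁻¹) * c⁻¹ := by rw [(hcomm.mul_right hcomm).eq, hcomm.eq]
          _ = (e * e) * (c⁻¹ * e) * c⁻¹ * c⁻¹ := by group
          _ = (e * e) * (e * c⁻¹) * c⁻¹ * c⁻¹ := by rw [hcomm.eq]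
          _ = _ := by group
      rw [h8, mul_inv_eq_one] at h6
      exact h6.symm
    have := mul_mem (mul_mem (mul_mem h h) h) (inv_mem (hsq c hcR))
    rwa [← h7, mul_inv_cancel_right] at this
  -- at most four classes are moved
  have hbound : ∀ a ∈ A, ∃ (φ : G → G → F) (y : G) (z : G), y ∈ R ∧ z ∈ R ∧
      ∀ s ∈ R, χ ⁅s, y⁆ = 1 → χ ⁅s, z⁆ = 1 → ⁅s, a⁆ ∈ Z := by
    intro a ha
    by_cases hall : ∀ x ∈ R, ⁅x, a⁆ ∈ Z
    · exact ⟨fun _ _ => 1, 1, 1, one_mem R, one_mem R, fun s hs _ _ => hall s hs⟩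
    push Not at hall
    obtain ⟨x, hx, hxa⟩ := hall
    have hconj : ∀ r ∈ R, a * r * a⁻¹ ∈ R := fun r hr => (Subgroup.mem_normalizer_iff.mp (hAR ha) r).mp hr
    set y := ⁅x, a⁆ with hy
    have hyR : y ∈ R := by
      rw [hy, commutatorElement_def, show x * a * x⁻¹ * a⁻¹ = x * (a * x⁻¹ * a⁻¹) by group]
      exact mul_mem hx (hconj _ (inv_mem hx))
    set z := a * y * a⁻¹ with hz
    set z' := a * z * a⁻¹ with hz'
    have hzR : z ∈ R := hconj y hyR
    have hz'R : z' ∈ R := hconj z hzR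
    -- `y, z` do not commute on `U`
    have hnc : χ ⁅y, z⁆ ≠ 1 := by
      intro hc
      set A0 : Subgroup G := Subgroup.closure ((Z : Set G) ∪ {y, z}) with hA0
      have hgen : ∀ t ∈ (Z : Set G) ∪ {y, z}, t ∈ R := by
        rintro t (ht | rfl | rfl)
        · exact ht.1
        · exact hyR
        · exact hzR
      have hA0R : A0 ≤ R := (Subgroup.closure_le _).mpr hgen
      have hgg : ∀ t ∈ (Z : Set G) ∪ {y, z}, ∀ t' ∈ (Z : Set G) ∪ {y, z}, χ ⁅t, t'⁆ = 1 := by
        have hzz : ∀ t ∈ Z, ∀ t' ∈ R, χ ⁅t, t'⁆ = 1 := fun t ht t' ht' => by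
          rw [commutatorElement_eq_one_iff_mul_comm.mpr (hZc t ht t' ht').symm, hχ1]
        rintro t (ht | rfl | rfl) t' ht'
        · exact hzz t ht t' (hgen t' ht')
        · rcases ht' with ht' | rfl | rfl
          · exact hswap ht'.1 hyR (hzz t' ht' y hyR)
          · rw [commutatorElement_self, hχ1]
          · exact hc
        · rcases ht' with ht' | rfl | rfl
          · exact hswap ht'.1 hzR (hzz t' ht' z hzR)
          · exact hswap hyR hzR hc
          · rw [commutatorElement_self, hχ1]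
      have hA0comm : ∀ t ∈ A0, ∀ t' ∈ A0, χ ⁅t, t'⁆ = 1 := by
        have h1 : ∀ t' ∈ (Z : Set G) ∪ {y, z}, A0 ≤ ann t' := fun t' ht' =>
          (Subgroup.closure_le _).mpr fun t ht => ⟨hgen t ht, fun _ => hgg t ht t' ht'⟩
        intro t ht t' ht'
        have h2 : A0 ≤ ann t := (Subgroup.closure_le _).mpr fun s hs =>
          ⟨hgen s hs, fun htR => hswap htR (hgen s hs) ((h1 s hs ht).2 (hgen s hs))⟩
        exact hswap (hA0R ht') (hA0R ht) ((h2 ht').2 (hA0R ht))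
      have hA0a : ∀ t ∈ A0, a * t * a⁻¹ ∈ A0 := by
        intro t ht
        have hle : A0 ≤ A0.comap (MulAut.conj a).toMonoidHom := by
          refine (Subgroup.closure_le _).mpr ?_
          rintro t (ht | rfl | rfl)
          · show a * t * a⁻¹ ∈ A0
            rw [← (hZfix t ht a ha).eq, mul_inv_cancel_right]
            exact Subgroup.subset_closure (Or.inl ht)
          · exact Subgroup.subset_closure (Or.inr (Or.inr rfl))
          · show a * z * a⁻¹ ∈ A0
            have h3 : y * z * (a * z * a⁻¹) = 1 := by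
              have h4 : y = x * (a * x⁻¹ * a⁻¹) := by rw [hy, commutatorElement_def]; group
              rw [hz, h4, show x * (a * x⁻¹ * a⁻¹) * (a * (x * (a * x⁻¹ * a⁻¹)) * a⁻¹) *
                (a * (a * (x * (a * x⁻¹ * a⁻¹)) * a⁻¹) * a⁻¹) = x * (a ^ 3 * x⁻¹ * (a ^ 3)⁻¹) by rw [pow_three']; group, ha3 a ha]
              simp
            rw [eq_inv_of_mul_eq_one_right h3]
            exact inv_mem (mul_mem (Subgroup.subset_closure (Or.inr (Or.inl rfl)))
              (Subgroup.subset_closure (Or.inr (Or.inr rfl))))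
        exact hle ht
      set z₀ := y⁻¹ * z with hz₀
      have hyA0 : y ∈ A0 := Subgroup.subset_closure (Or.inr (Or.inl rfl))
      have hz₀A0 : z₀ ∈ A0 := mul_mem (inv_mem hyA0) (Subgroup.subset_closure (Or.inr (Or.inr rfl)))
      have hz₀Z : z₀ ∉ Z := by
        intro h
        refine hxa (hcopZ a ha x hx ?_)
        rw [← hy, commutatorElement_def, show y * a * y⁻¹ * a⁻¹ = y * z⁻¹ by rw [hz]; group,
          show y * z⁻¹ = z * z₀⁻¹ * z⁻¹ by rw [hz₀]; group, hZc _ (inv_mem h) z hzR, mul_inv_cancel_right]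
        exact inv_mem h
      obtain ⟨u₁, hu₁, hne₁⟩ : ∃ v ∈ U, ρ z₀ v ≠ v := by
        by_contra h
        push Not at h
        exact hz₀Z (htriv z₀ (hA0R hz₀A0) h)
      obtain ⟨ψ, w', hw'U, hw'0, hw', hψ⟩ := exists_weight ρ A0 U (fun t ht => hUR t (hA0R ht))
        (fun t ht t' ht' v hv => by rw [hUcomm t (hA0R ht) t' (hA0R ht') v hv, hA0comm t ht t' ht', one_smul])
        hz₀A0 (hpowR z₀ (hA0R hz₀A0)) hRK ⟨u₁, hu₁, hne₁⟩
      refine hψ ?_
      rw [hz₀, char_mul hw' hw'0 (inv_mem hyA0) (hA0a y hyA0), hmoved A0 ψ w' hw'0 hw' a ha hA0a y hyA0,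
        ← char_mul hw' hw'0 (inv_mem hyA0) hyA0, inv_mul_cancel, char_one hw' hw'0]
    refine ⟨fun _ _ => 1, y, z, hyR, hzR, fun s hs hsy hsz => ?_⟩
    -- `a` commutes with `s` on `U`
    have hident : ∀ t, t ∈ R → ⁅t, a⁆ ∈ R → ∀ v, (2 : F) • ρ ⁅t, a⁆ (ρ (a * ⁅t, a⁆ * a⁻¹) (ρ a v) - ρ a v) =
        ρ ⁅t, a⁆ (ρ (a * ⁅t, a⁆ * a⁻¹) v) - v := by
      intro t ht hta v
      have h1 : ρ a (ρ a v) = (2 : F) • ρ a v - v := by
        have h := LinearMap.congr_fun (hquad a ha) v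
        simp only [pow_two, Module.End.mul_apply, LinearMap.sub_apply, Module.End.one_apply, map_sub,
          LinearMap.zero_apply] at h
        rw [two_smul, eq_sub_iff_add_eq, ← sub_eq_zero, ← h]; abel
      have h2 : ρ (⁅t, a⁆ * a) (ρ (⁅t, a⁆ * a) v) = (2 : F) • ρ (⁅t, a⁆ * a) v - v := by
        have he : ⁅t, a⁆ * a = t * a * t⁻¹ := by rw [commutatorElement_def]; group
        have h := LinearMap.congr_fun (hquad a ha) (ρ t⁻¹ v)
        simp only [pow_two, Module.End.mul_apply, LinearMap.sub_apply, Module.End.one_apply, map_sub,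
          LinearMap.zero_apply] at h
        have h' := congrArg (ρ t) h
        simp only [map_sub, map_zero, rho_apply_inv] at h'
        simp only [he, map_mul, Module.End.mul_apply, rho_inv_apply]
        rw [two_smul, eq_sub_iff_add_eq, ← sub_eq_zero, ← h']; abel
      rw [map_mul, Module.End.mul_apply, Module.End.mul_apply,
        show ρ a (ρ ⁅t, a⁆ (ρ a v)) = ρ (a * ⁅t, a⁆ * a⁻¹) (ρ a (ρ a v)) by
          rw [← Module.End.mul_apply (ρ (a * ⁅t, a⁆ * a⁻¹)), ← map_mul, inv_mul_cancel_right, map_mul,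
            Module.End.mul_apply], h1, map_sub, map_sub, map_smul, map_smul] at h2
      rw [map_sub, smul_sub]
      calc (2 : F) • ρ ⁅t, a⁆ (ρ (a * ⁅t, a⁆ * a⁻¹) (ρ a v)) - (2 : F) • ρ ⁅t, a⁆ (ρ a v)
          = ((2 : F) • ρ ⁅t, a⁆ (ρ (a * ⁅t, a⁆ * a⁻¹) (ρ a v)) - ρ ⁅t, a⁆ (ρ (a * ⁅t, a⁆ * a⁻¹) v)) +
            ρ ⁅t, a⁆ (ρ (a * ⁅t, a⁆ * a⁻¹) v) - (2 : F) • ρ ⁅t, a⁆ (ρ a v) := by abel
        _ = _ := by rw [h2]; abel
    have hscomm : ∀ t ∈ R, χ ⁅s, t⁆ = 1 → ∀ v ∈ U, ρ t (ρ s v) = ρ s (ρ t v) := fun t ht h v hv => by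
      rw [hUcomm t ht s hs v hv, hswap hs ht h, one_smul]
    have hsz' : χ ⁅s, z'⁆ = 1 := by
      have h4 : y = x * (a * x⁻¹ * a⁻¹) := by rw [hy, commutatorElement_def]; group
      have h3 : y * z * z' = 1 := by
        rw [hz', hz, h4, show x * (a * x⁻¹ * a⁻¹) * (a * (x * (a * x⁻¹ * a⁻¹)) * a⁻¹) *
          (a * (a * (x * (a * x⁻¹ * a⁻¹)) * a⁻¹) * a⁻¹) = x * (a ^ 3 * x⁻¹ * (a ^ 3)⁻¹) by rw [pow_three']; group, ha3 a ha]
        simp
      rw [eq_inv_of_mul_eq_one_right h3]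
      have hyz : y * z ∈ ann s := mul_mem ⟨hyR, fun _ => hswap hs hyR hsy⟩ ⟨hzR, fun _ => hswap hs hzR hsz⟩
      have := inv_mem hyz
      exact hswap (inv_mem (mul_mem hyR hzR)) hs (this.2 hs)
    have hdiff : ∀ t, t ∈ R → ∀ u, ⁅t, a⁆ = u → u ∈ R → χ ⁅s, u⁆ = 1 → χ ⁅s, a * u * a⁻¹⁆ = 1 → ∀ v ∈ U,
        ρ (a * u * a⁻¹) (ρ a (ρ s v) - ρ s (ρ a v)) = ρ a (ρ s v) - ρ s (ρ a v) := by
      intro t ht u hu' huR hsu hsu' v hv
      subst hu'
      have hu'R : a * ⁅t, a⁆ * a⁻¹ ∈ R := hconj _ huR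
      have hA := hident t ht huR (ρ s v)
      have hB := congrArg (ρ s) (hident t ht huR v)
      rw [map_smul, map_sub (ρ s) (ρ ⁅t, a⁆ (ρ (a * ⁅t, a⁆ * a⁻¹) v)) v, ← hscomm _ huR hsu _ (sub_mem (hUR _ hu'R _ (hUA a ha v hv)) (hUA a ha v hv)),
        map_sub (ρ s), ← hscomm _ hu'R hsu' _ (hUA a ha v hv), ← hscomm _ huR hsu _ (hUR _ hu'R v hv),
        ← hscomm _ hu'R hsu' v hv, ← hA] at hB
      have hB' := rho_injective ρ ⁅t, a⁆ (smul_right_injective V h2F hB)
      rw [map_sub]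
      have := congrArg (fun q => q) hB'
      calc ρ (a * ⁅t, a⁆ * a⁻¹) (ρ a (ρ s v)) - ρ (a * ⁅t, a⁆ * a⁻¹) (ρ s (ρ a v))
          = (ρ (a * ⁅t, a⁆ * a⁻¹) (ρ a (ρ s v)) - ρ a (ρ s v)) + ρ a (ρ s v) -
            ρ (a * ⁅t, a⁆ * a⁻¹) (ρ s (ρ a v)) := by abel
        _ = _ := by rw [← hB']; abel
    have hzero : ∀ v ∈ U, ρ a (ρ s v) - ρ s (ρ a v) = 0 := by
      intro v hv
      set d := ρ a (ρ s v) - ρ s (ρ a v) with hd
      have hdU : d ∈ U := sub_mem (hUA a ha _ (hUR s hs v hv)) (hUR s hs _ (hUA a ha v hv))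
      have h1 : ρ z d = d := hdiff x hx y rfl hyR hsy hsz v hv
      have h2 : ρ z' d = d := hdiff (a * x * a⁻¹) (hconj x hx) z (by
        rw [hz, hy]; simp only [commutatorElement_def]; group) hzR hsz hsz' v hv
      have h3 := hUcomm z hzR z' hz'R d hdU
      rw [h2, h1, h2] at h3
      by_contra hd0
      have hc : χ ⁅z, z'⁆ = 1 := smul_left_injective F hd0 (h3.symm.trans (one_smul F d).symm)
      refine hnc ?_
      have h4 : ⁅z, z'⁆ = a * ⁅y, z⁆ * a⁻¹ := by rw [hz', hz]; simp only [commutatorElement_def]; group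
      rwa [h4, ← (hZfix _ (hRR y hyR z hzR) a ha).eq, mul_inv_cancel_right] at hc
    refine htriv _ ?_ fun v hv => ?_
    · rw [commutatorElement_def, show s * a * s⁻¹ * a⁻¹ = s * (a * s⁻¹ * a⁻¹) by group]
      exact mul_mem hs (hconj _ (inv_mem hs))
    · rw [commutatorElement_def, map_mul, map_mul, map_mul, Module.End.mul_apply, Module.End.mul_apply,
        Module.End.mul_apply]
      have h1 := hzero (ρ s⁻¹ (ρ a⁻¹ v)) (hUR _ (inv_mem hs) _ (hUA _ (inv_mem ha) v hv))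
      rw [rho_apply_inv, rho_apply_inv, sub_eq_zero] at h1
      exact h1.symm
  -- the quotient as a group
  let M := R ⧸ Z.subgroupOf R
  have hM2 : IsPGroup 2 M := hR2.to_quotient _
  have hMcomm : ∀ u v : M, u * v = v * u := by
    intro u v
    induction u using QuotientGroup.induction_on with
    | H r =>
      induction v using QuotientGroup.induction_on with
      | H s =>
        rw [← QuotientGroup.mk_mul, ← QuotientGroup.mk_mul, QuotientGroup.eq, Subgroup.mem_subgroupOf]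
        have := hRR (s : G)⁻¹ (inv_mem s.2) (r : G)⁻¹ (inv_mem r.2)
        simpa [commutatorElement_def, mul_assoc] using this
  let conjB : B → MulAut R := fun b => MulEquiv.ofBijective
    (((MulAut.conj (b : G)).toMonoidHom.comp R.subtype).codRestrict R fun r =>
      (Subgroup.mem_normalizer_iff.mp (hRB b.2) r).mp r.2)
    (Finite.injective_iff_bijective.mp fun r s h => Subtype.ext ((MulAut.conj (b : G)).injective (congrArg Subtype.val h)))
  have hconjB : ∀ (b : B) (r : R), ((conjB b r : R) : G) = b * r * (b : G)⁻¹ := fun _ _ => rfl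
  have hmapB : ∀ b : B, (Z.subgroupOf R).map (conjB b).toMonoidHom = Z.subgroupOf R := fun b =>
    Subgroup.eq_of_le_of_card_ge (by rintro _ ⟨r, hr, rfl⟩; exact hZB b b.2 _ hr)
      (le_of_eq (Subgroup.card_map_of_injective (f := (conjB b).toMonoidHom) (conjB b).injective).symm)
  let φB : B →* MulAut M :=
    { toFun := fun b => QuotientGroup.congr _ _ (conjB b) (hmapB b)
      map_one' := MulEquiv.ext fun u => by
        induction u using QuotientGroup.induction_on with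
        | H r => exact congrArg QuotientGroup.mk (Subtype.ext (by
            show ((1 : B) : G) * r * ((1 : B) : G)⁻¹ = r
            simp))
      map_mul' := fun b b' => MulEquiv.ext fun u => by
        induction u using QuotientGroup.induction_on with
        | H r => exact congrArg QuotientGroup.mk (Subtype.ext (by
            show ((b * b' : B) : G) * r * ((b * b' : B) : G)⁻¹ = (b : G) * ((b' : G) * r * (b' : G)⁻¹) * (b : G)⁻¹
            rw [Subgroup.coe_mul]; group)) }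
  let toB : A → B := fun a => ⟨a, hAB a.2⟩
  let D : A → M →* M := fun a => MonoidHom.mk' (fun u => u * (φB (toB a) u)⁻¹) fun u v => by
    rw [map_mul, mul_inv_rev, mul_assoc, mul_assoc]
    congr 1
    rw [← mul_assoc, hMcomm]
  have hDmk : ∀ (a : A) (r : R), (D a (r : M) = 1 ↔ ⁅(r : G), (a : G)⁆ ∈ Z) := by
    intro a r
    show (r : M) * (((conjB (toB a) r : R) : M))⁻¹ = 1 ↔ _
    rw [← QuotientGroup.mk_inv, ← QuotientGroup.mk_mul, QuotientGroup.eq_one_iff, Subgroup.mem_subgroupOf,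
      Subgroup.coe_mul, Subgroup.coe_inv, hconjB]
    have : (r : G) * ((a : G) * r * (a : G)⁻¹)⁻¹ = ⁅(r : G), (a : G)⁆ := by
      simp only [commutatorElement_def]; group
    rw [this]
  have hDfix : ∀ a : A, ∀ u ∈ (D a).range, D a u = 1 → u = 1 := by
    rintro a _ ⟨v, rfl⟩ h
    induction v using QuotientGroup.induction_on with
    | H r =>
      have e : D a (r : M) = ((r * (conjB (toB a) r)⁻¹ : R) : M) := rfl
      rw [e, hDmk] at h
      rw [hDmk]
      refine hcopZ a a.2 r r.2 ?_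
      rw [Subgroup.coe_mul, Subgroup.coe_inv, hconjB] at h
      rwa [show ⁅(r : G), (a : G)⁆ = (r : G) * ((a : G) * r * (a : G)⁻¹)⁻¹ by simp only [commutatorElement_def]; group]
  have hrange : ∀ a : A, Nat.card (D a).range ≤ 4 := by
    intro a
    obtain ⟨-, y, z, hy, hz, hyz⟩ := hbound a a.2
    -- two sign characters cut out a subgroup of the kernel
    have hsign : ∀ t ∈ R, ∀ r ∈ R, χ ⁅r, t⁆ = 1 ∨ χ ⁅r, t⁆ = -1 := by
      intro t ht r hr
      have h1 := hbil hr hr ht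
      rw [commutatorElement_eq_one_iff_mul_comm.mpr (hZc _ (hsq r hr) t ht).symm, hχ1] at h1
      exact mul_self_eq_one_iff.mp h1.symm
    let g : R → Prop × Prop := fun r => (χ ⁅(r : G), y⁆ = 1, χ ⁅(r : G), z⁆ = 1)
    have hker : ∀ r r' : R, g r = g r' → D a (r : M) = D a (r' : M) := by
      intro r r' h
      simp only [g, Prod.mk.injEq, eq_iff_iff] at h
      rw [← mul_inv_eq_one, ← map_inv, ← map_mul, ← QuotientGroup.mk_inv, ← QuotientGroup.mk_mul, hDmk]
      have key : ∀ t ∈ R, (χ ⁅(r : G), t⁆ = 1 ↔ χ ⁅(r' : G), t⁆ = 1) → χ ⁅((r * r'⁻¹ : R) : G), t⁆ = 1 := by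
        intro t ht hiff
        have h2 : χ ⁅(r' : G), t⁆ * χ ⁅(r' : G), t⁆ = 1 := by
          rw [← hbil r'.2 r'.2 ht, commutatorElement_eq_one_iff_mul_comm.mpr (hZc _ (hsq r' r'.2) t ht).symm, hχ1]
        have h3 := hbil (inv_mem r'.2) r'.2 ht
        rw [inv_mul_cancel, commutatorElement_one_left, hχ1] at h3
        rw [Subgroup.coe_mul, Subgroup.coe_inv, hbil r.2 (inv_mem r'.2) ht]
        rcases hsign t ht r r.2 with h4 | h4 <;> rcases hsign t ht r' r'.2 with h5 | h5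
        · rw [h4, one_mul, h3, h5, mul_one]
        · rw [h4, h5] at hiff
          exact absurd (hiff.mp rfl).symm (fun h6 => h2F (by linear_combination h6))
        · rw [h4, h5] at hiff
          exact absurd (hiff.mpr rfl).symm (fun h6 => h2F (by linear_combination h6))
        · rw [h5] at h3
          rw [h4]; linear_combination -h3
      exact hyz _ (r * r'⁻¹).2 (key y hy h.1) (key z hz h.2)
    have hfac : ∀ u : (D a).range, ∃ r : R, D a (r : M) = u := by
      rintro ⟨_, v, rfl⟩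
      induction v using QuotientGroup.induction_on with
      | H r => exact ⟨r, rfl⟩
    choose pre hpre using hfac
    calc Nat.card (D a).range ≤ Nat.card (Prop × Prop) := Nat.card_le_card_of_injective (fun u => g (pre u))
          fun u v h => Subtype.ext (by rw [← hpre u, ← hpre v]; exact hker _ _ h)
      _ = 4 := by simp
  have hDcomm : ∀ (a a' : A) (u : M), φB (toB a') (D a u) = D a (φB (toB a') u) := by
    intro a a' u
    show φB (toB a') (u * (φB (toB a) u)⁻¹) = φB (toB a') u * (φB (toB a) (φB (toB a') u))⁻¹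
    rw [map_mul, map_inv, ← MulAut.mul_apply, ← MulAut.mul_apply, ← map_mul, ← map_mul,
      show toB a' * toB a = toB a * toB a' from Subtype.ext (hAab a' a'.2 a a.2).eq]
  obtain ⟨a, hane⟩ : ∃ a : A, ∃ u, D a u ≠ 1 := by
    by_contra h
    push Not at h
    refine hRA fun a ha => Subgroup.mem_centralizer_iff.mpr fun r hr => ?_
    have h1 := hZfix _ ((hDmk ⟨a, ha⟩ ⟨r, hr⟩).mp (h _ _)) a ha
    set c := ⁅r, a⁆ with hc
    have h2 : a * r * a⁻¹ = c⁻¹ * r := by rw [hc, commutatorElement_def]; group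
    have h4 : a * c⁻¹ * a⁻¹ = c⁻¹ := by rw [← h1.inv_left.eq, mul_inv_cancel_right]
    have h3 : a ^ 3 * r * (a ^ 3)⁻¹ = (c * (c * c))⁻¹ * r := by
      rw [show a ^ 3 * r * (a ^ 3)⁻¹ = a * (a * (a * r * a⁻¹) * a⁻¹) * a⁻¹ by rw [pow_three']; group, h2,
        show a * (c⁻¹ * r) * a⁻¹ = (a * c⁻¹ * a⁻¹) * (a * r * a⁻¹) by group, h4, h2,
        show a * (c⁻¹ * (c⁻¹ * r)) * a⁻¹ = (a * c⁻¹ * a⁻¹) * (a * c⁻¹ * a⁻¹) * (a * r * a⁻¹) by group, h4, h2]
      group
    rw [ha3 a ha, one_mul, inv_one, mul_one, right_eq_mul, inv_eq_one] at h3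
    obtain ⟨k, hk⟩ := hR2 ⟨c, ((hDmk ⟨a, ha⟩ ⟨r, hr⟩).mp (h _ _)).1⟩
    have hc1 : c = 1 := by
      rw [← orderOf_eq_one_iff, ← Nat.dvd_one,
        ← (Nat.Coprime.pow_right k (by norm_num : Nat.Coprime 3 2) : Nat.gcd 3 (2 ^ k) = 1)]
      exact Nat.dvd_gcd (orderOf_dvd_of_pow_eq_one (by rw [pow_three]; exact h3))
        (orderOf_dvd_of_pow_eq_one (congrArg Subtype.val hk))
    rw [hc, commutatorElement_eq_one_iff_mul_comm] at hc1
    exact hc1
  obtain ⟨u₀, hu₀⟩ := hane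
  set P := (D a).range with hP
  set C := (D a).ker with hC
  have hPinv : ∀ (b : A), ∀ u ∈ P, φB (toB b) u ∈ P := by
    rintro b _ ⟨v, rfl⟩; exact ⟨_, (hDcomm a b v).symm⟩
  have hCinv : ∀ (b : A), ∀ u ∈ C, φB (toB b) u ∈ C := fun b u hu => by
    rw [hC, MonoidHom.mem_ker] at hu ⊢
    rw [← hDcomm a b u, hu, map_one]
  have hPC : ∀ u ∈ P, u ∈ C → u = 1 := fun u hu hu' => hDfix a u hu hu'
  have hDim : ∀ (b : A) (S : Subgroup M), (∀ u ∈ S, φB (toB b) u ∈ S) → ∀ u ∈ S, D b u ∈ S := fun b S hS u hu =>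
    mul_mem hu (inv_mem (hS u hu))
  have h4 : ∀ (b : A) (S : Subgroup M), (∀ u ∈ S, φB (toB b) u ∈ S) → (∃ u ∈ S, D b u ≠ 1) →
      4 ≤ Nat.card (S.map (D b)) := by
    rintro b S hS ⟨u, hu, hu1⟩
    refine four_le_card hM2 _ (φB (toB b)) ?_ ?_ ⟨u, hu, rfl⟩ hu1
    · rintro _ ⟨v, hv, rfl⟩
      exact ⟨_, hS v hv, (hDcomm b b v).symm⟩
    · rintro _ ⟨v, hv, rfl⟩ hfix
      refine hDfix b _ ⟨v, rfl⟩ ?_
      show D b v * (φB (toB b) (D b v))⁻¹ = 1
      rw [hfix, mul_inv_cancel]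
  have hboth : ∀ b : A, ¬ ((∃ u ∈ P, D b u ≠ 1) ∧ ∃ u ∈ C, D b u ≠ 1) := by
    rintro b ⟨h1, h2⟩
    have h16 : Nat.card (P.map (D b) × C.map (D b)) ≤ Nat.card (D b).range := by
      refine Nat.card_le_card_of_injective (fun q => ⟨(q.1 : M) * q.2, mul_mem
        ((Subgroup.map_le_range _ _) q.1.2) ((Subgroup.map_le_range _ _) q.2.2)⟩) fun q q' h => ?_
      have h' : (q.1 : M) * q.2 = q'.1 * q'.2 := congrArg Subtype.val h
      obtain ⟨v1, hv1, e1⟩ := q.1.2
      obtain ⟨v1', hv1', e1'⟩ := q'.1.2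
      obtain ⟨v2, hv2, e2⟩ := q.2.2
      obtain ⟨v2', hv2', e2'⟩ := q'.2.2
      have k1 : (q'.1 : M)⁻¹ * q.1 ∈ P := mul_mem (inv_mem (e1' ▸ hDim b P (hPinv b) v1' hv1'))
        (e1 ▸ hDim b P (hPinv b) v1 hv1)
      have k2 : (q'.1 : M)⁻¹ * q.1 = q'.2 * (q.2 : M)⁻¹ := by
        rw [eq_mul_inv_iff_mul_eq, mul_assoc, h', inv_mul_cancel_left]
      have k3 : (q'.1 : M)⁻¹ * q.1 ∈ C := k2 ▸ mul_mem (e2' ▸ hDim b C (hCinv b) v2' hv2')
        (inv_mem (e2 ▸ hDim b C (hCinv b) v2 hv2))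
      have k4 := hPC _ k1 k3
      refine Prod.ext (Subtype.ext (inv_mul_eq_one.mp k4).symm) (Subtype.ext ?_)
      rw [k4, eq_comm, mul_inv_eq_one] at k2
      exact k2.symm
    have := h4 b P (hPinv b) h1
    have := h4 b C (hCinv b) h2
    have := hrange b
    rw [Nat.card_prod] at h16
    nlinarith
  have haP : ∃ u ∈ P, D a u ≠ 1 := ⟨_, ⟨u₀, rfl⟩, fun h => hu₀ (hDfix a _ ⟨u₀, rfl⟩ h)⟩
  have hCtriv : ∀ b : A, ∀ u ∈ C, D b u = 1 := by
    intro b u hu
    by_contra hne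
    have hbP : ∀ v ∈ P, D b v = 1 := fun v hv => by_contra fun h => hboth b ⟨⟨v, hv, h⟩, u, hu, hne⟩
    have hsplit : ∀ v, D (a * b) v = v * (φB (toB a) (φB (toB b) v))⁻¹ := fun v => by
      rw [← MulAut.mul_apply, ← map_mul]; rfl
    have hfixb : ∀ v, D b v = 1 → φB (toB b) v = v := fun v h => (mul_inv_eq_one.mp h).symm
    obtain ⟨v, hv, hv1⟩ := haP
    refine hboth (a * b) ⟨⟨v, hv, ?_⟩, u, hu, ?_⟩
    · rw [hsplit, hfixb v (hbP v hv)]; exact hv1
    · rw [hsplit, (mul_inv_eq_one.mp (MonoidHom.mem_ker.mp (hCinv b u hu))).symm]; exact hne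
  have hCbot : ∀ u ∈ C, u = 1 := by
    let X : Subgroup G :=
      { carrier := {r | r ∈ R ∧ ∀ b ∈ A, ⁅r, b⁆ ∈ Z}
        one_mem' := ⟨one_mem R, fun b _ => by rw [commutatorElement_one_left]; exact one_mem Z⟩
        mul_mem' := fun {r s} hr hs => ⟨mul_mem hr.1 hs.1, fun b hb => by
          rw [show ⁅r * s, b⁆ = r * ⁅s, b⁆ * r⁻¹ * ⁅r, b⁆ by simp only [commutatorElement_def]; group,
            hZc _ (hs.2 b hb) r hr.1, mul_inv_cancel_right]
          exact mul_mem (hs.2 b hb) (hr.2 b hb)⟩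
        inv_mem' := fun {r} hr => ⟨inv_mem hr.1, fun b hb => by
          rw [show ⁅r⁻¹, b⁆ = r⁻¹ * ⁅r, b⁆⁻¹ * r by simp only [commutatorElement_def]; group,
            hZc _ (inv_mem (hr.2 b hb)) r⁻¹ (inv_mem hr.1), inv_mul_cancel_right]
          exact inv_mem (hr.2 b hb)⟩ }
    have hXZ : X ≤ Z := by
      refine hbig X (fun r hr => hr.1) (fun z hz => ⟨hz.1, fun b hb => ?_⟩) (fun h => hu₀ ?_) ?_
      · rw [commutatorElement_eq_one_iff_mul_comm.mpr (hZfix z hz b hb).eq]; exact one_mem Z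
      · induction u₀ using QuotientGroup.induction_on with
        | H r => exact (hDmk a r).mpr ((h.ge r.2 : (r : G) ∈ X).2 a a.2)
      · intro c hc r hr
        refine ⟨(Subgroup.mem_normalizer_iff.mp (hRB hc) r).mp hr.1, fun b hb => ?_⟩
        have hb' : c⁻¹ * b * c ∈ A := by
          have := (Subgroup.mem_normalizer_iff.mp (inv_mem (hBA hc)) b).mp hb
          rwa [inv_inv] at this
        rw [show ⁅c * r * c⁻¹, b⁆ = c * ⁅r, c⁻¹ * b * c⁆ * c⁻¹ by simp only [commutatorElement_def]; group]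
        exact hZB c hc _ (hr.2 _ hb')
    intro u hu
    induction u using QuotientGroup.induction_on with
    | H r =>
      rw [QuotientGroup.eq_one_iff, Subgroup.mem_subgroupOf]
      exact hXZ ⟨r.2, fun b hb => (hDmk ⟨b, hb⟩ r).mp (hCtriv ⟨b, hb⟩ _ hu)⟩
  have hcard : Nat.card M ≤ 4 := by
    refine le_trans (Nat.card_le_card_of_injective (fun u => (⟨D a u, ⟨u, rfl⟩⟩ : P)) fun u v h => ?_) (hrange a)
    have h' : D a u = D a v := congrArg Subtype.val h
    rw [← mul_inv_eq_one]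
    exact hCbot _ (by rw [hC, MonoidHom.mem_ker, map_mul, map_inv, h', mul_inv_cancel])
  -- a `3`-group permuting at most four points with a fixed one is abelian
  have hsmall : ∀ c c' : B, Commute (φB c) (φB c') := by
    have hr : IsPGroup 3 φB.range := fun y => by
      obtain ⟨c, hc⟩ := y.2
      obtain ⟨k, hk⟩ := hB c
      exact ⟨k, Subtype.ext (by rw [Subgroup.coe_pow, ← hc, ← map_pow, hk, map_one]; rfl)⟩
    letI := Fintype.ofFinite M
    let e : MulAut M →* Equiv.Perm M := MonoidHom.mk' (fun f => f.toEquiv) fun _ _ => rfl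
    have hei : Function.Injective e := fun f f' h => MulEquiv.ext fun m => Equiv.congr_fun h m
    have hdvd : Nat.card φB.range ∣ (Nat.card M).factorial := by
      rw [← Subgroup.card_map_of_injective hei, ← Nat.card_perm]
      exact Subgroup.card_subgroup_dvd_card _
    obtain ⟨k, hk⟩ := IsPGroup.iff_card.mp hr
    have hk1 : k ≤ 1 := by
      by_contra hk2
      have h9 : 9 ∣ (Nat.card M).factorial := by
        rw [hk] at hdvd
        exact (Nat.pow_dvd_pow 3 (by omega : 2 ≤ k)).trans hdvd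
      have h24 := h9.trans (Nat.factorial_dvd_factorial hcard)
      norm_num [Nat.factorial] at h24
    haveI : IsCyclic φB.range := by
      rcases Nat.eq_zero_or_pos k with h0 | h1
      · haveI : Subsingleton φB.range := (Nat.card_eq_one_iff_unique.mp (by rw [hk, h0, pow_zero])).1
        exact isCyclic_of_subsingleton
      · exact isCyclic_of_prime_card (p := 3) (by rw [hk, show k = 1 by omega, pow_one])
    letI : CommGroup φB.range := IsCyclic.commGroup
    exact fun c c' => congrArg Subtype.val (mul_comm (⟨φB c, c, rfl⟩ : φB.range) ⟨φB c', c', rfl⟩)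
  -- so the commutators act trivially on `M`
  refine hu₀ ?_
  have hker : A ≤ φB.ker.map B.subtype := by
    rw [hAdef, Subgroup.commutator_le]
    intro c hc c' hc'
    refine ⟨⁅(⟨c, hc⟩ : B), ⟨c', hc'⟩⁆, ?_, ?_⟩
    · rw [SetLike.mem_coe, MonoidHom.mem_ker, map_commutatorElement, commutatorElement_eq_one_iff_commute]
      exact hsmall _ _
    · exact map_commutatorElement B.subtype _ _
  obtain ⟨c, hc, hca⟩ := hker a.2
  show u₀ * (φB (toB a) u₀)⁻¹ = 1
  rw [show toB a = c from Subtype.ext hca.symm, MonoidHom.mem_ker.mp hc, MulAut.one_apply, mul_inv_cancel]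

end Cfsg.Agent.HH
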