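import Mathlib.GroupTheory.Sylow
import Mathlib.GroupTheory.Nilpotent
import Mathlib.GroupTheory.OrderOfElement

/-!
Groups of the same order type; normal Sylow subgroups detected by counting.
-/

set_option autoImplicit false

namespace Cfsg.Agent.OrderType

open Subgroup
open scoped Pointwise

variable {G H : Type*} [Group G] [Group H]

/-- Groups of the same order type admit an order-preserving bijection. -/
theorem exists_orderEquiv [Finite G] [Finite H]
    (hT : ∀ m : ℕ, Nat.card {g : G // orderOf g = m} = Nat.card {h : H // orderOf h = m}) :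
    ∃ e : G ≃ H, ∀ g, orderOf (e g) = orderOf g := by
  have he : ∀ m, Nonempty ({g : G // orderOf g = m} ≃ {h : H // orderOf h = m}) := fun m =>
    ⟨(Finite.card_eq.mp (hT m)).some⟩
  refine ⟨Equiv.ofFiberEquiv (f := fun g : G => orderOf g) (g := fun h : H => orderOf h)
    (fun m => (he m).some), fun g => Equiv.ofFiberEquiv_map _ g⟩

theorem card_eq [Finite G] [Finite H]
    (hT : ∀ m : ℕ, Nat.card {g : G // orderOf g = m} = Nat.card {h : H // orderOf h = m}) :
    Nat.card G = Nat.card H := by
  obtain ⟨e, -⟩ := exists_orderEquiv hT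
  exact Nat.card_congr e

theorem card_pow_eq_one [Finite G] [Finite H]
    (hT : ∀ m : ℕ, Nat.card {g : G // orderOf g = m} = Nat.card {h : H // orderOf h = m}) (n : ℕ) :
    Nat.card {g : G // g ^ n = 1} = Nat.card {h : H // h ^ n = 1} := by
  obtain ⟨e, he⟩ := exists_orderEquiv hT
  refine Nat.card_congr (e.subtypeEquiv fun g => ?_)
  rw [← orderOf_dvd_iff_pow_eq_one, ← orderOf_dvd_iff_pow_eq_one, he]

/-- A subgroup containing every solution of `x ^ n = 1`, where `n` is its order, is the solution set;
conversely if the number of solutions is `n`, a subgroup of order `n` is normal. -/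
theorem normal_of_card_pow_eq_one [Finite G] (K : Subgroup G)
    (h : Nat.card {g : G // g ^ Nat.card K = 1} = Nat.card K) :
    K.Normal ∧ ∀ x : G, x ^ Nat.card K = 1 → x ∈ K := by
  have hsub : (K : Set G) ⊆ {g : G | g ^ Nat.card K = 1} := fun x hx => by
    show x ^ Nat.card K = 1
    exact congrArg Subtype.val (pow_card_eq_one' (x := (⟨x, hx⟩ : K)))
  have heq : (K : Set G) = {g : G | g ^ Nat.card K = 1} :=
    Set.eq_of_subset_of_ncard_le hsub (le_of_eq h)
  refine ⟨⟨fun x hx g => ?_⟩, fun x hx => ?_⟩
  · have hx' : x ^ Nat.card K = 1 := hsub hx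
    have : g * x * g⁻¹ ∈ {g : G | g ^ Nat.card K = 1} := by
      show (g * x * g⁻¹) ^ Nat.card K = 1
      rw [conj_pow, hx', mul_one, mul_inv_cancel]
    exact (Set.ext_iff.mp heq _).mpr this
  · exact (Set.ext_iff.mp heq x).mpr hx

/-- A normal subgroup of order coprime to its index is the solution set of `x ^ |K| = 1`. -/
theorem mem_iff_pow_eq_one [Finite G] (K : Subgroup G) [K.Normal]
    (hcop : (Nat.card K).Coprime K.index) (x : G) : x ∈ K ↔ x ^ Nat.card K = 1 := by
  refine ⟨fun hx => congrArg Subtype.val (pow_card_eq_one' (x := (⟨x, hx⟩ : K))), fun hx => ?_⟩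
  rw [← QuotientGroup.eq_one_iff, ← orderOf_eq_one_iff]
  refine Nat.dvd_one.mp (hcop ▸ Nat.dvd_gcd ?_ ?_)
  · exact (orderOf_map_dvd (QuotientGroup.mk' K) x).trans (orderOf_dvd_of_pow_eq_one hx)
  · rw [index_eq_card]
    exact orderOf_dvd_natCard _

theorem card_pow_eq_one_of_normal [Finite G] (K : Subgroup G) [K.Normal]
    (hcop : (Nat.card K).Coprime K.index) : Nat.card {g : G // g ^ Nat.card K = 1} = Nat.card K :=
  Nat.card_congr (Equiv.subtypeEquivRight fun x => (mem_iff_pow_eq_one K hcop x).symm)

/-- The same order type transports normality of a Sylow subgroup. -/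
theorem sylow_normal [Finite G] [Finite H]
    (hT : ∀ m : ℕ, Nat.card {g : G // orderOf g = m} = Nat.card {h : H // orderOf h = m})
    {p : ℕ} [Fact p.Prime] (P : Sylow p G) (hP : (P : Subgroup G).Normal) (Q : Sylow p H) :
    (Q : Subgroup H).Normal := by
  refine (normal_of_card_pow_eq_one (Q : Subgroup H) ?_).1
  have e : Nat.card P = Nat.card Q := by
    rw [P.card_eq_multiplicity, Q.card_eq_multiplicity, card_eq hT]
  rw [← e, ← card_pow_eq_one hT]
  exact card_pow_eq_one_of_normal (P : Subgroup G) P.card_coprime_index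

end Cfsg.Agent.OrderType
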