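import Mathlib
import Cfsg.Agent.Lib.ThreeTransp
import Cfsg.Agent.Lib.CoxeterSym
import Cfsg.Agent.Lib.HeisThree
import Cfsg.Agent.Lib.FischerSpaceBasic

/-!
The line system of a 3-transposition group; its planes.
-/

set_option autoImplicit false

namespace Cfsg.Agent.ThreeTransp

open Cfsg Cfsg.Agent.SporB

variable {G : Type*} [Group G] {D : Set G}

/-- third point on the line through two non-commuting members -/
def thirdPoint (hD : IsThreeTranspositionGroup D) (a b : D) : D :=
  ⟨(a : G) * b * a, conj_self_mem hD a.2 b.2⟩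

theorem thirdPoint_comm (hD : IsThreeTranspositionGroup D) {a b : D}
    (h : ¬ Commute (a : G) b) : thirdPoint hD a b = thirdPoint hD b a :=
  Subtype.ext (tt_braid hD.1 a.2 b.2 h)

theorem not_commute_third (hD : IsThreeTranspositionGroup D) {a b : D}
    (h : ¬ Commute (a : G) b) : ¬ Commute (a : G) (thirdPoint hD a b) := by
  intro hc
  apply h
  have h2 := hc.map (MulAut.conj (a : G)).toMonoidHom
  simpa [thirdPoint, tt_inv hD.1 a.2, mul_assoc, ← mul_assoc (a : G) a,
    tt_mul_self hD.1 a.2] using h2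

theorem third_third (hD : IsThreeTranspositionGroup D) (a b : D) :
    thirdPoint hD a (thirdPoint hD a b) = b :=
  Subtype.ext (by
    show (a : G) * (a * b * a) * a = b
    simp only [mul_assoc, tt_mul_self hD.1 a.2, mul_one]
    rw [← mul_assoc, tt_mul_self hD.1 a.2, one_mul])

theorem mem_lines_iff (hD : IsThreeTranspositionGroup D) (l : Set D) :
    l ∈ threeTranspositionLines D ↔
      ∃ a b : D, ¬ Commute (a : G) b ∧ l = {a, b, thirdPoint hD a b} := by
  have e : ∀ x y : D, ¬ Commute (x : G) y →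
      {z : D | (z : G) = x ∨ (z : G) = y ∨ (z : G) = (y : G) * x * (y : G)⁻¹} =
        ({x, y, thirdPoint hD x y} : Set D) := by
    intro x y h
    ext z
    rw [tt_inv hD.1 y.2, ← tt_braid hD.1 x.2 y.2 h]
    simp [thirdPoint, Subtype.ext_iff]
  constructor
  · rintro ⟨x, y, h, rfl⟩; exact ⟨x, y, h, e x y h⟩
  · rintro ⟨x, y, h, rfl⟩; exact ⟨x, y, h, (e x y h).symm⟩

theorem line_pair (hD : IsThreeTranspositionGroup D) {l : Set D}
    (hl : l ∈ threeTranspositionLines D) {u v : D} (hu : u ∈ l) (hv : v ∈ l) (hne : u ≠ v) :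
    ¬ Commute (u : G) v ∧ l = {u, v, thirdPoint hD u v} := by
  obtain ⟨a, b, h, rfl⟩ := (mem_lines_iff hD l).1 hl
  have h' : ¬ Commute (b : G) a := fun hc => h hc.symm
  have h1 := not_commute_third hD h
  have h2 : ¬ Commute (b : G) (thirdPoint hD a b) := by
    rw [thirdPoint_comm hD h]; exact not_commute_third hD h'
  have e1 : thirdPoint hD a (thirdPoint hD a b) = b := third_third hD a b
  have e2 : thirdPoint hD b (thirdPoint hD a b) = a := by
    rw [thirdPoint_comm hD h, third_third]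
  rcases hu with rfl | rfl | rfl <;> rcases hv with rfl | rfl | rfl
  · exact absurd rfl hne
  · exact ⟨h, rfl⟩
  · exact ⟨h1, by rw [e1]; ext z; simp; tauto⟩
  · exact ⟨h', by rw [← thirdPoint_comm hD h]; ext z; simp; tauto⟩
  · exact absurd rfl hne
  · exact ⟨h2, by rw [e2]; ext z; simp; tauto⟩
  · exact ⟨fun hc => h1 hc.symm, by
      rw [← thirdPoint_comm hD h1, e1]; ext z; simp; tauto⟩
  · exact ⟨fun hc => h2 hc.symm, by
      rw [← thirdPoint_comm hD h2, e2]; ext z; simp; tauto⟩
  · exact absurd rfl hne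

theorem lines_partialLinear (hD : IsThreeTranspositionGroup D) :
    LineSystem.IsPartialLinear (threeTranspositionLines D) := by
  intro l hl m hm x y hne h1 h2 h3 h4
  rw [(line_pair hD hl h1 h2 hne).2, (line_pair hD hm h3 h4 hne).2]

theorem line_ncard (hD : IsThreeTranspositionGroup D) {l : Set D}
    (hl : l ∈ threeTranspositionLines D) : l.ncard = 3 := by
  obtain ⟨a, b, h, rfl⟩ := (mem_lines_iff hD l).1 hl
  refine Set.ncard_eq_three.2 ⟨a, b, thirdPoint hD a b, ?_, ?_, ?_, rfl⟩
  · exact fun e => h (e ▸ Commute.refl _)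
  · exact fun e => not_commute_third hD h (e ▸ Commute.refl _)
  · intro e
    have : a = b := by
      have h2 := congrArg (thirdPoint hD b) e
      rw [thirdPoint_comm hD h, third_third] at h2
      rw [← h2]; exact Subtype.ext (by show (b : G) * b * b = b; rw [tt_mul_self hD.1 b.2, one_mul])
    exact h (this ▸ Commute.refl _)

theorem subspace_third (hD : IsThreeTranspositionGroup D) {T : Set D}
    (hT : LineSystem.IsSubspace (threeTranspositionLines D) T) {a b : D} (ha : a ∈ T) (hb : b ∈ T)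
    (h : ¬ Commute (a : G) b) : thirdPoint hD a b ∈ T :=
  hT _ ((mem_lines_iff hD _).2 ⟨a, b, h, rfl⟩) a ha b hb (fun e => h (e ▸ Commute.refl _))
    (by simp) (by simp) (by simp)

/-! ### Three-string planes -/

/-- the transposition attached to a two-element subset of a four-element set -/
def pairPerm (s : DualAffinePoint) : Equiv.Perm (Fin 4) :=
  Equiv.swap (s.1.min' (Finset.card_pos.1 (by rw [s.2]; norm_num)))
    (s.1.max' (Finset.card_pos.1 (by rw [s.2]; norm_num)))

/-- the two-element subset `{i, j}` -/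
def pt (i j : Fin 4) (h : ({i, j} : Finset (Fin 4)).card = 2) : DualAffinePoint := ⟨{i, j}, h⟩

theorem pairPerm_line : ∀ i : Fin 4, ∃ u v w : DualAffinePoint,
    pairPerm u * pairPerm v ≠ pairPerm v * pairPerm u ∧
      pairPerm u * pairPerm v * pairPerm u = pairPerm w ∧
      ∀ s : DualAffinePoint, (i ∉ s.val ↔ (s = u ∨ s = v ∨ s = w)) := by decide

theorem pairPerm_col : ∀ u v : DualAffinePoint, pairPerm u * pairPerm v ≠ pairPerm v * pairPerm u →
    ∃ i : Fin 4, i ∉ u.val ∧ i ∉ v.val := by decide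

theorem pairPerm_inj : ∀ u v : DualAffinePoint, pairPerm u = pairPerm v → u = v := by decide

theorem pairPerm_conj : ∀ u : DualAffinePoint, ∃ x : Equiv.Perm (Fin 4),
    x * Equiv.swap 0 1 * x⁻¹ = pairPerm u := by decide

theorem string_plane (hD : IsThreeTranspositionGroup D) {a p b : D} (hab : a ≠ b)
    (hc : Commute (a : G) b) (hap : ¬ Commute (a : G) p) (hpb : ¬ Commute (p : G) b) :
    LineSystem.Isomorphic
      (LineSystem.restrict (threeTranspositionLines D) (LineSystem.span (threeTranspositionLines D)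
        (({p, a, thirdPoint hD p a} : Set D) ∪ {p, b, thirdPoint hD p b})))
      dualAffinePlaneTwo := by
  let g : ℕ → G := fun i => if i = 0 then a else if i = 1 then p else b
  have hrel : CoxeterSym.RelA g 3 := by
    refine ⟨fun i hi => ?_, fun i hi => ?_, fun i j h1 h2 => ?_⟩
    · interval_cases i
      · exact tt_mul_self hD.1 a.2
      · exact tt_mul_self hD.1 p.2
      · exact tt_mul_self hD.1 b.2
    · have hi' : i < 2 := by omega
      interval_cases i
      · exact tt_braid hD.1 a.2 p.2 hap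
      · exact tt_braid hD.1 p.2 b.2 hpb
    · obtain rfl : i = 0 := by omega
      obtain rfl : j = 2 := by omega
      exact hc
  obtain ⟨φ, hφ, -⟩ := CoxeterSym.exists_hom g 3 hrel
  have e0 : φ (Equiv.swap 0 1) = a := hφ 0 (by omega)
  have e1 : φ (Equiv.swap 1 2) = p := hφ 1 (by omega)
  have e2 : φ (Equiv.swap 2 3) = b := hφ 2 (by omega)
  have hinj : Function.Injective φ := by
    have hreps : ∀ σ : Equiv.Perm (Fin 4), σ ≠ 1 → ∃ x : Equiv.Perm (Fin 4),
        x * σ * x⁻¹ = Equiv.swap 0 1 ∨ x * σ * x⁻¹ = Equiv.swap 0 1 * Equiv.swap 1 2 ∨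
        x * σ * x⁻¹ = Equiv.swap 0 1 * Equiv.swap 2 3 ∨
        x * σ * x⁻¹ = Equiv.swap 0 1 * Equiv.swap 1 2 * Equiv.swap 2 3 := by decide
    refine (injective_iff_map_eq_one φ).2 fun σ hσ => ?_
    by_contra hne
    obtain ⟨x, hx⟩ := hreps σ hne
    have h1 : φ (x * σ * x⁻¹) = 1 := by simp [hσ]
    rcases hx with h | h | h | h <;> rw [h] at h1 <;> simp only [map_mul, e0, e1, e2] at h1
    · exact ne_one hD.1 a.2 h1
    · exact ne_of_not_commute hap (eq_of_mul_eq_one hD.1 a.2 h1)
    · exact hab (Subtype.ext (eq_of_mul_eq_one hD.1 a.2 h1))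
    · have h3 := orderOf_mul_not_commute hD.1 a.2 p.2 hap
      rw [← inv_eq_of_mul_eq_one_left h1, orderOf_inv, hD.1.1 _ b.2] at h3
      omega
  have hmem : ∀ u : DualAffinePoint, φ (pairPerm u) ∈ D := by
    intro u
    obtain ⟨x, hx⟩ := pairPerm_conj u
    rw [← hx, map_mul, map_mul, map_inv, e0]
    exact conj_mem hD _ a.2
  let f : DualAffinePoint → D := fun u => ⟨φ (pairPerm u), hmem u⟩
  have hf : Function.Injective f := fun u v h => pairPerm_inj u v (hinj (congrArg Subtype.val h))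
  have hncomm : ∀ u v, ¬ Commute ((f u : D) : G) (f v) ↔
      pairPerm u * pairPerm v ≠ pairPerm v * pairPerm u := by
    intro u v
    refine not_congr ⟨fun h => hinj ?_, fun h => Commute.map h φ⟩
    rw [map_mul, map_mul]; exact h
  have hthird : ∀ u v w, pairPerm u * pairPerm v * pairPerm u = pairPerm w →
      thirdPoint hD (f u) (f v) = f w := by
    intro u v w h
    exact Subtype.ext (show φ (pairPerm u) * φ (pairPerm v) * φ (pairPerm u) = φ (pairPerm w) by
      rw [← map_mul, ← map_mul, h])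
  have htwo : ∀ l ∈ threeTranspositionLines D, ∃ x ∈ l, ∃ y ∈ l, x ≠ y := by
    intro l hl
    obtain ⟨x, y, h, rfl⟩ := (mem_lines_iff hD l).1 hl
    exact ⟨x, by simp, y, by simp, fun e => h (e ▸ Commute.refl _)⟩
  have pa : f (pt 0 1 (by decide)) = a := Subtype.ext (by
    show φ (pairPerm (pt 0 1 (by decide))) = a
    rw [show pairPerm (pt 0 1 (by decide)) = Equiv.swap 0 1 by decide, e0])
  have pp : f (pt 1 2 (by decide)) = p := Subtype.ext (by
    show φ (pairPerm (pt 1 2 (by decide))) = p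
    rw [show pairPerm (pt 1 2 (by decide)) = Equiv.swap 1 2 by decide, e1])
  have pb : f (pt 2 3 (by decide)) = b := Subtype.ext (by
    show φ (pairPerm (pt 2 3 (by decide))) = b
    rw [show pairPerm (pt 2 3 (by decide)) = Equiv.swap 2 3 by decide, e2])
  have ta : thirdPoint hD p a = f (pt 0 2 (by decide)) := by
    rw [← pp, ← pa]; exact hthird _ _ _ (by decide)
  have tb : thirdPoint hD p b = f (pt 1 3 (by decide)) := by
    rw [← pp, ← pb]; exact hthird _ _ _ (by decide)
  refine FischerSp.isomorphic_of_embedding _ (lines_partialLinear hD) htwo _ f hf ?_ ?_ _ ?_ ?_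
  · rintro q ⟨i, rfl⟩
    obtain ⟨u, v, w, h1, h2, h3⟩ := pairPerm_line i
    refine (mem_lines_iff hD _).2 ⟨f u, f v, (hncomm u v).2 h1, ?_⟩
    rw [hthird u v w h2, show ({f u, f v, f w} : Set D) = f '' {u, v, w} by
      simp [Set.image_insert_eq]]
    congr 1
    ext s
    simp [h3 s]
  · rintro u v hne ⟨l, hl, hu, hv⟩
    obtain ⟨i, hi⟩ := pairPerm_col u v
      ((hncomm u v).1 (line_pair hD hl hu hv (fun e => hne (hf e))).1)
    exact ⟨_, ⟨i, rfl⟩, hi.1, hi.2⟩
  · intro z hz
    simp only [Set.mem_union, Set.mem_insert_iff, Set.mem_singleton_iff] at hz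
    rcases hz with (rfl | rfl | rfl) | (rfl | rfl | rfl)
    exacts [⟨_, pp⟩, ⟨_, pa⟩, ⟨_, ta.symm⟩, ⟨_, pp⟩, ⟨_, pb⟩, ⟨_, tb.symm⟩]
  · rintro T hT hS _ ⟨u, rfl⟩
    have m01 : f (pt 0 1 (by decide)) ∈ T := pa ▸ hS (by simp)
    have m12 : f (pt 1 2 (by decide)) ∈ T := pp ▸ hS (by simp)
    have m23 : f (pt 2 3 (by decide)) ∈ T := pb ▸ hS (by simp)
    have m02 : f (pt 0 2 (by decide)) ∈ T := ta ▸ hS (by simp)
    have m13 : f (pt 1 3 (by decide)) ∈ T := tb ▸ hS (by simp)
    have m03 : f (pt 0 3 (by decide)) ∈ T := by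
      rw [← hthird (pt 0 1 (by decide)) (pt 1 3 (by decide)) (pt 0 3 (by decide)) (by decide)]
      exact subspace_third hD hT m01 m13 ((hncomm _ _).2 (by decide))
    have hall : ∀ u : DualAffinePoint, u = pt 0 1 (by decide) ∨ u = pt 1 2 (by decide) ∨
        u = pt 2 3 (by decide) ∨ u = pt 0 2 (by decide) ∨ u = pt 1 3 (by decide) ∨
        u = pt 0 3 (by decide) := by decide
    rcases hall u with rfl | rfl | rfl | rfl | rfl | rfl <;> assumption

/-! ### Affine planes -/

theorem affine_plane (hD : IsThreeTranspositionGroup D) {a p b : D}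
    (hpa : ¬ Commute (p : G) a) (hpb : ¬ Commute (p : G) b)
    (h11 : ¬ Commute (a : G) b) (h12 : ¬ Commute (a : G) (thirdPoint hD p b)) :
    LineSystem.Isomorphic
      (LineSystem.restrict (threeTranspositionLines D) (LineSystem.span (threeTranspositionLines D)
        (({p, a, thirdPoint hD p a} : Set D) ∪ {p, b, thirdPoint hD p b})))
      affinePlaneThree := by
  obtain ⟨P, hP⟩ := p; obtain ⟨A, hA⟩ := a; obtain ⟨B, hB⟩ := b
  simp only [thirdPoint] at hpa hpb h11 h12
  have hPP := tt_mul_self hD.1 hP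
  have hPi := tt_inv hD.1 hP
  set x := P * A with hxdef
  set y := P * B with hydef
  have hx : x ^ 3 = 1 := tt_cube hD.1 hP hA hpa
  have hy : y ^ 3 = 1 := tt_cube hD.1 hP hB hpb
  have hxi : x⁻¹ = A * P := by rw [hxdef, mul_inv_rev, hPi, tt_inv hD.1 hA]
  have hxy' : (x⁻¹ * y) ^ 3 = 1 := by
    rw [hxi, hydef, show A * P * (P * B) = A * B by rw [mul_assoc, ← mul_assoc P P, hPP, one_mul]]
    exact tt_cube hD.1 hA hB h11
  have hxy'' : (x⁻¹ * y⁻¹) ^ 3 = 1 := by
    rw [hxi, hydef, mul_inv_rev, hPi, tt_inv hD.1 hB, show A * P * (B * P) = A * (P * B * P) by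
      simp only [mul_assoc]]
    exact tt_cube hD.1 hA (conj_self_mem hD hP hB) h12
  have h1 : (x * y) ^ 3 = 1 := by
    rw [show x * y = x * (x⁻¹ * y⁻¹)⁻¹ * x⁻¹ by simp [mul_assoc], conj_pow, inv_pow, hxy'']
    simp
  have h2 : (x * y⁻¹) ^ 3 = 1 := by
    rw [show x * y⁻¹ = x * (x⁻¹ * y)⁻¹ * x⁻¹ by simp [mul_assoc], conj_pow, inv_pow, hxy']
    simp
  obtain ⟨hzx, hzy⟩ := HeisThree.comm_commute hx hy h1 h2
  set z := x * y * x⁻¹ * y⁻¹ with hz
  have hPx : P * x * P = x⁻¹ := by rw [hxi, hxdef, ← mul_assoc, hPP, one_mul]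
  have hPy : P * y * P = y⁻¹ := by
    rw [hydef, ← mul_assoc, hPP, one_mul, mul_inv_rev, hPi, tt_inv hD.1 hB]
  have hPx' : P * x⁻¹ * P = x := by
    rw [← hPx]; simp only [mul_assoc, hPP, mul_one]; rw [← mul_assoc, hPP, one_mul]
  have hPy' : P * y⁻¹ * P = y := by
    rw [← hPy]; simp only [mul_assoc, hPP, mul_one]; rw [← mul_assoc, hPP, one_mul]
  have hPz : Commute P z := by
    refine (commute_iff_conj_eq hD.1 hP).2 ?_
    have e1 : P * z * P = (P * x * P) * (P * y * P) * (P * x⁻¹ * P) * (P * y⁻¹ * P) := by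
      rw [hz]; simp only [mul_assoc, ← mul_assoc P P, hPP, one_mul]
    rw [e1, hPx, hPy, hPx', hPy']
    calc x⁻¹ * y⁻¹ * x * y = (y * x)⁻¹ * z * (y * x) := by rw [hz]; group
      _ = z := by
        rw [mul_assoc, ← (hzy.mul_left hzx).eq, ← mul_assoc, inv_mul_cancel, one_mul]
  -- coordinates
  let w : ℕ → ℕ → G := fun i j => x ^ i * y ^ j
  let F : ℕ → ℕ → G := fun i j => w i j * P * (w i j)⁻¹
  have hmod3 : ∀ i j, F i j = F (i % 3) (j % 3) := fun i j => by
    simp only [F, w]; rw [pow_eq_pow_mod i hx, pow_eq_pow_mod j hy]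
  let Z := Subgroup.centralizer ({z} : Set G)
  -- conjugation by `w k l` translates
  have hyx : ∀ i j : ℕ, ∃ n : ℤ, y ^ j * x ^ i = x ^ i * y ^ j * z ^ n := by
    have base : ∀ i : ℕ, ∃ n : ℤ, y * x ^ i = x ^ i * y * z ^ n := by
      intro i
      induction i with
      | zero => exact ⟨0, by simp⟩
      | succ i ih =>
        obtain ⟨n, hn⟩ := ih
        refine ⟨n - 1, ?_⟩
        have hxy : y * x = x * y * z⁻¹ := by
          calc y * x = z⁻¹ * (x * y) := by rw [hz]; simp [mul_assoc]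
            _ = x * y * z⁻¹ := ((hzx.mul_left hzy).inv_right.symm).eq
        rw [pow_succ, ← mul_assoc, hn, mul_assoc _ _ x, ((hzx.zpow_right n).eq).symm, ← mul_assoc,
          mul_assoc (x ^ i) y x, hxy]
        simp only [mul_assoc]
        rw [zpow_sub_one, ((Commute.refl z).zpow_left n).inv_right.eq]
    intro i j
    induction j with
    | zero => exact ⟨0, by simp⟩
    | succ j ih =>
      obtain ⟨n, hn⟩ := ih
      obtain ⟨m, hm⟩ := base i
      refine ⟨n + m, ?_⟩
      rw [pow_succ', mul_assoc, hn, ← mul_assoc, ← mul_assoc, hm, zpow_add]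
      have h := ((hzy.pow_left j).zpow_right m)
      rw [mul_assoc (x ^ i * y) (z ^ m), ← h.eq]
      simp only [mul_assoc]
      rw [((Commute.refl z).zpow_left n).zpow_right m]
  have trans : ∀ k l i j, w k l * F i j * (w k l)⁻¹ = F (k + i) (l + j) := by
    intro k l i j
    obtain ⟨n, hn⟩ := hyx i l
    have e : w k l * w i j = w (k + i) (l + j) * z ^ n := by
      simp only [w]
      rw [mul_assoc, ← mul_assoc (y ^ l), hn, pow_add, pow_add]
      simp only [mul_assoc]
      rw [((hzy.pow_left j).zpow_right n).eq]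
    calc w k l * F i j * (w k l)⁻¹ = (w k l * w i j) * P * (w k l * w i j)⁻¹ := by
          simp [F, mul_assoc]
      _ = w (k + i) (l + j) * (z ^ n * P * (z ^ n)⁻¹) * (w (k + i) (l + j))⁻¹ := by
          rw [e]; simp [mul_assoc]
      _ = F (k + i) (l + j) := by
          rw [(hPz.symm.zpow_left n).eq, mul_inv_cancel_right]
  have refl : ∀ i j, P * F i j * P = F (2 * i) (2 * j) := by
    intro i j
    have hpow : ∀ (g : G), P * g * P = g⁻¹ → g ^ 3 = 1 → ∀ i : ℕ, P * g ^ i * P = g ^ (2 * i) := by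
      intro g hg hg3 i
      calc P * g ^ i * P = P * g ^ i * P⁻¹ := by rw [hPi]
        _ = (P * g * P⁻¹) ^ i := conj_pow.symm
        _ = (g⁻¹) ^ i := by rw [hPi, hg]
        _ = (g ^ 2) ^ i := by
          rw [show g⁻¹ = g ^ 2 from inv_eq_of_mul_eq_one_right (by rw [← pow_succ']; exact hg3)]
        _ = g ^ (2 * i) := (pow_mul g 2 i).symm
    have hw : P * w i j * P = w (2 * i) (2 * j) := by
      simp only [w]
      rw [← hpow x hPx hx i, ← hpow y hPy hy j]
      simp only [mul_assoc, ← mul_assoc P P, hPP, one_mul]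
    calc P * F i j * P = (P * w i j * P) * P * (P * w i j * P)⁻¹ := by
          simp [F, hPi, mul_assoc, ← mul_assoc P P, hPP]
      _ = F (2 * i) (2 * j) := by rw [hw]
  have cm : ∀ i j, F i j ∈ D := fun i j => conj_mem hD _ hP
  have F00 : F 0 0 = P := by simp [F, w]
  -- third point of two points of the plane
  have third : ∀ i j k l, F i j * F k l * F i j = F (2 * i + 2 * k) (2 * j + 2 * l) := by
    intro i j k l
    have e : F k l = w i j * F (k + 2 * i) (l + 2 * j) * (w i j)⁻¹ := by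
      rw [trans, hmod3 k, hmod3 (i + (k + 2 * i))]
      congr 1 <;> omega
    have hFij : F i j = w i j * P * (w i j)⁻¹ := rfl
    calc F i j * F k l * F i j
        = w i j * (P * F (k + 2 * i) (l + 2 * j) * P) * (w i j)⁻¹ := by
          rw [hFij, e]; simp [mul_assoc]
      _ = F (i + 2 * (k + 2 * i)) (j + 2 * (l + 2 * j)) := by rw [refl, trans]
      _ = F (2 * i + 2 * k) (2 * j + 2 * l) := by
          rw [hmod3, hmod3 (2 * i + 2 * k)]; congr 1 <;> omega
  have F10 : F 1 0 = P * A * P * (A * P) := by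
    simp [F, w, hxdef, hPi, tt_inv hD.1 hA, mul_assoc]
  have F10' : F 1 0 = A := by
    rw [F10]
    calc P * A * P * (A * P) = (P * A * P) * A * P := by simp only [mul_assoc]
      _ = (A * P * A) * A * P := by rw [tt_braid hD.1 hP hA hpa]
      _ = A := by
        rw [mul_assoc (A * P) A A, tt_mul_self hD.1 hA, mul_one, mul_assoc, hPP, mul_one]
  have F01' : F 0 1 = B := by
    calc F 0 1 = (P * B * P) * B * P := by
          simp [F, w, hydef, hPi, tt_inv hD.1 hB, mul_assoc]
      _ = (B * P * B) * B * P := by rw [tt_braid hD.1 hP hB hpb]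
      _ = B := by
        rw [mul_assoc (B * P) B B, tt_mul_self hD.1 hB, mul_one, mul_assoc, hPP, mul_one]
  have F20' : F 2 0 = P * A * P := by
    rw [← F10']; exact (refl 1 0).symm
  have F02' : F 0 2 = P * B * P := by
    rw [← F01']; exact (refl 0 1).symm
  have nc1 : ∀ i j, i < 3 → j < 3 → (i, j) ≠ (0, 0) → F i j ≠ P := by
    intro i j hi hj hne hFP
    have hPA : A ≠ P := fun e => hpa (e ▸ Commute.refl P)
    have hPB : B ≠ P := fun e => hpb (e ▸ Commute.refl P)
    have hAB : A ≠ B := fun e => h11 (e ▸ Commute.refl A)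
    have hAB' : A ≠ P * B * P := fun e => h12 (e ▸ Commute.refl A)
    -- `w i j` fixes `P`: so it fixes every translate
    have key : ∀ k l, F (i + k) (j + l) = F k l := by
      intro k l
      rw [add_comm i k, add_comm j l, ← trans k l i j, hFP]
    interval_cases i <;> interval_cases j
    · exact hne rfl
    · exact hPB (F01'.symm.trans hFP)
    · apply hPB
      have := congrArg (fun t => P * t * P) hFP
      simp only [refl, hPP, one_mul] at this
      rw [← F01', hmod3]; rw [hmod3] at this; exact this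
    · exact hPA (F10'.symm.trans hFP)
    · apply hAB'
      rw [← F10', ← F02', ← key 0 2, hmod3 (1 + 0) (1 + 2)]
    · apply hAB
      rw [← F10', ← F01', ← key 0 1, hmod3 (1 + 0) (2 + 1)]
    · apply hPA
      have := congrArg (fun t => P * t * P) hFP
      simp only [refl, hPP, one_mul] at this
      rw [← F10', hmod3]; rw [hmod3] at this; exact this
    · apply hAB
      have := key 1 0
      rw [hmod3 (2 + 1)] at this
      rw [← F10', ← F01']; exact this.symm
    · apply hAB'
      have := key 1 0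
      rw [hmod3 (2 + 1)] at this
      rw [← F10', ← F02']; exact this.symm
  let f : (Fin 2 → ZMod 3) → D := fun v => ⟨F (v 0).val (v 1).val, cm _ _⟩
  have hf : Function.Injective f := by
    intro u v h
    have h' : F (u 0).val (u 1).val = F (v 0).val (v 1).val := congrArg Subtype.val h
    have h2 := congrArg (fun t => w (2 * (u 0).val) (2 * (u 1).val) * t *
      (w (2 * (u 0).val) (2 * (u 1).val))⁻¹) h'
    simp only [trans] at h2
    have hv0 := ZMod.val_lt (u 0)
    have e0 : ((2 * (u 0).val + (u 0).val) % 3 = 0) := by omega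
    have e1 : ((2 * (u 1).val + (u 1).val) % 3 = 0) := by omega
    rw [hmod3, e0, e1, F00, hmod3] at h2
    by_contra hne
    refine nc1 _ _ (Nat.mod_lt _ (by norm_num)) (Nat.mod_lt _ (by norm_num)) ?_ h2.symm
    intro he
    apply hne
    simp only [Prod.mk.injEq] at he
    have hu0 := ZMod.val_lt (u 0)
    have hu1 := ZMod.val_lt (u 1)
    have hw0 := ZMod.val_lt (v 0)
    have hw1 := ZMod.val_lt (v 1)
    funext k
    fin_cases k <;> apply ZMod.val_injective <;> simp only [Fin.zero_eta, Fin.mk_one] <;> omega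
  have hthird : ∀ u v, thirdPoint hD (f u) (f v) = f (-(u + v)) := by
    intro u v
    refine Subtype.ext ?_
    show F (u 0).val (u 1).val * F (v 0).val (v 1).val * F (u 0).val (u 1).val =
      F ((-(u + v)) 0).val ((-(u + v)) 1).val
    rw [third, hmod3]
    have : ∀ s t : ZMod 3, (2 * s.val + 2 * t.val) % 3 = (-(s + t)).val := by decide
    simp only [this, Pi.neg_apply, Pi.add_apply]
  have hnc : ∀ u v, u ≠ v → ¬ Commute ((f u : D) : G) (f v) := by
    intro u v hne hc
    have h1 : thirdPoint hD (f u) (f v) = f v := Subtype.ext ((commute_iff_conj_eq hD.1 (f u).2).1 hc)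
    rw [hthird] at h1
    have h2 := hf h1
    apply hne
    funext k
    have h3 := congrFun h2 k
    simp only [Pi.neg_apply, Pi.add_apply] at h3
    revert h3
    generalize u k = s
    generalize v k = t
    revert s t
    decide
  have htwo : ∀ l ∈ threeTranspositionLines D, ∃ x ∈ l, ∃ y ∈ l, x ≠ y := by
    intro l hl
    obtain ⟨x, y, h, rfl⟩ := (mem_lines_iff hD l).1 hl
    exact ⟨x, by simp, y, by simp, fun e => h (e ▸ Commute.refl _)⟩
  have q00 : f ![0, 0] = ⟨P, hP⟩ := Subtype.ext F00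
  have q10 : f ![1, 0] = ⟨A, hA⟩ := Subtype.ext F10'
  have q01 : f ![0, 1] = ⟨B, hB⟩ := Subtype.ext F01'
  have q20 : f ![2, 0] = thirdPoint hD ⟨P, hP⟩ ⟨A, hA⟩ := Subtype.ext F20'
  have q02 : f ![0, 2] = thirdPoint hD ⟨P, hP⟩ ⟨B, hB⟩ := Subtype.ext F02'
  refine FischerSp.isomorphic_of_embedding _ (lines_partialLinear hD) htwo _ f hf ?_ ?_ _ ?_ ?_
  · rintro q ⟨v, d, hd, rfl⟩
    have hne : v ≠ v + d := fun e => hd (left_eq_add.1 e)
    refine (mem_lines_iff hD _).2 ⟨f v, f (v + d), hnc _ _ hne, ?_⟩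
    rw [hthird, show ({f v, f (v + d), f (-(v + (v + d)))} : Set D) = f '' {v, v + d, -(v + (v + d))}
      by simp [Set.image_insert_eq]]
    congr 1
    have e : -(v + (v + d)) = v + (2 : ZMod 3) • d := by
      funext k
      simp only [Pi.neg_apply, Pi.add_apply, Pi.smul_apply, smul_eq_mul]
      generalize v k = s
      generalize d k = t
      revert s t
      decide
    rw [e]
    ext s
    constructor
    · rintro ⟨c, rfl⟩
      have : ∀ c : ZMod 3, c = 0 ∨ c = 1 ∨ c = 2 := by decide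
      rcases this c with rfl | rfl | rfl <;> simp
    · rintro (rfl | rfl | rfl)
      exacts [⟨0, by simp⟩, ⟨1, by simp⟩, ⟨2, rfl⟩]
  · rintro u v hne -
    exact ⟨_, ⟨u, v - u, sub_ne_zero.2 (Ne.symm hne), rfl⟩, ⟨0, by simp⟩, ⟨1, by simp⟩⟩
  · intro s hs
    simp only [Set.mem_union, Set.mem_insert_iff, Set.mem_singleton_iff] at hs
    rcases hs with (rfl | rfl | rfl) | (rfl | rfl | rfl)
    exacts [⟨_, q00⟩, ⟨_, q10⟩, ⟨_, q20⟩, ⟨_, q00⟩, ⟨_, q01⟩, ⟨_, q02⟩]
  · rintro T hT hS _ ⟨u, rfl⟩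
    have m00 : f ![0, 0] ∈ T := q00 ▸ hS (by simp)
    have m10 : f ![1, 0] ∈ T := q10 ▸ hS (by simp)
    have m20 : f ![2, 0] ∈ T := q20 ▸ hS (by simp)
    have m01 : f ![0, 1] ∈ T := q01 ▸ hS (by simp)
    have m02 : f ![0, 2] ∈ T := q02 ▸ hS (by simp)
    have hall : ∀ s t : ZMod 3, (s = 0 ∧ (t = 0 ∨ t = 1 ∨ t = 2)) ∨ (t = 0 ∧ (s = 1 ∨ s = 2)) ∨
        ∃ i j : ZMod 3, (i = 1 ∨ i = 2) ∧ (j = 1 ∨ j = 2) ∧ s = -i ∧ t = -j := by decide
    have hu : u = ![u 0, u 1] := by funext k; fin_cases k <;> rfl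
    rw [hu]
    rcases hall (u 0) (u 1) with ⟨e, e' | e' | e'⟩ | ⟨e, e' | e'⟩ | ⟨i, j, hi, hj, e, e'⟩
    any_goals (rw [e, e']; assumption)
    have key : f (-(![i, 0] + ![0, j])) ∈ T := by
      rw [← hthird]
      refine subspace_third hD hT ?_ ?_ (hnc _ _ ?_)
      · rcases hi with rfl | rfl <;> assumption
      · rcases hj with rfl | rfl <;> assumption
      · intro h
        have := congrFun h 0
        simp only [Matrix.cons_val_zero] at this
        rcases hi with rfl | rfl <;> revert this <;> decide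
    rw [e, e', show (![-i, -j] : Fin 2 → ZMod 3) = -(![i, 0] + ![0, j]) by
      funext k; fin_cases k <;> simp]
    exact key

theorem lines_fischerSpace (hD : IsThreeTranspositionGroup D) :
    IsFischerSpace (threeTranspositionLines D) := by
  refine ⟨lines_partialLinear hD, fun l hl => line_ncard hD hl, ?_⟩
  rintro l hl m hm hlm ⟨p, hpl, hpm⟩
  by_cases hc : ∃ a ∈ l, ∃ b ∈ m, a ≠ p ∧ b ≠ p ∧ Commute (a : G) b
  · obtain ⟨a, hal, b, hbm, hap, hbp, hab⟩ := hc
    obtain ⟨n1, el⟩ := line_pair hD hl hpl hal (Ne.symm hap)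
    obtain ⟨n2, em⟩ := line_pair hD hm hpm hbm (Ne.symm hbp)
    have hne : a ≠ b := fun e => hlm (by rw [el, em, e])
    rw [el, em]
    exact Or.inl (string_plane hD hne hab (fun h => n1 h.symm) n2)
  · push Not at hc
    obtain ⟨a, hal, b, hbm, hap, hbp⟩ : ∃ a ∈ l, ∃ b ∈ m, a ≠ p ∧ b ≠ p := by
      obtain ⟨a, ha, ha'⟩ := Set.exists_ne_of_one_lt_ncard (by rw [line_ncard hD hl]; norm_num) p
      obtain ⟨b, hb, hb'⟩ := Set.exists_ne_of_one_lt_ncard (by rw [line_ncard hD hm]; norm_num) p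
      exact ⟨a, ha, b, hb, ha', hb'⟩
    obtain ⟨n1, el⟩ := line_pair hD hl hpl hal (Ne.symm hap)
    obtain ⟨n2, em⟩ := line_pair hD hm hpm hbm (Ne.symm hbp)
    have ht : thirdPoint hD p b ≠ p := by
      intro e
      apply not_commute_third hD n2
      rw [e]
    have h11 := hc a hal b hbm hap hbp
    have h12 := hc a hal (thirdPoint hD p b) (em ▸ by simp) hap ht
    rw [el, em]
    exact Or.inr (affine_plane hD n1 n2 h11 h12)

end Cfsg.Agent.ThreeTransp
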