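import Mathlib.GroupTheory.SpecificGroups.ZGroup
import Mathlib.GroupTheory.PresentedGroup
import Cfsg.Agent.S0056
import Cfsg.Agent.Cores.Basic

/-!
The metacyclic presentation of a finite Z-group in which all subgroups of order `p * q` are cyclic.
-/

set_option autoImplicit false

namespace Cfsg.Agent.ZGroupPres

open Subgroup

/-- The relators of the metacyclic presentation. -/
abbrev rels (n m r : ℕ) : Set (FreeGroup (Fin 2)) :=
  {FreeGroup.of (0 : Fin 2) ^ n, FreeGroup.of (1 : Fin 2) ^ m,
    (FreeGroup.of (0 : Fin 2))⁻¹ * FreeGroup.of 1 * FreeGroup.of 0 * (FreeGroup.of (1 : Fin 2) ^ r)⁻¹}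

theorem normal_form (n m r : ℕ) (hn : 0 < n) (hm : 0 < m) (g : PresentedGroup (rels n m r)) :
    ∃ i : Fin n, ∃ j : Fin m, g = PresentedGroup.of 0 ^ (i : ℕ) * PresentedGroup.of 1 ^ (j : ℕ) := by
  set a : PresentedGroup (rels n m r) := PresentedGroup.of 0 with ha
  set b : PresentedGroup (rels n m r) := PresentedGroup.of 1 with hb
  have hr : ∀ w ∈ rels n m r, PresentedGroup.mk (rels n m r) w = 1 := fun w hw =>
    PresentedGroup.one_of_mem hw
  have han : a ^ n = 1 := by
    have := hr _ (Or.inl rfl)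
    rwa [map_pow] at this
  have hbm : b ^ m = 1 := by
    have := hr _ (Or.inr (Or.inl rfl))
    rwa [map_pow] at this
  have hab : a⁻¹ * b * a = b ^ r := by
    have := hr _ (Or.inr (Or.inr rfl))
    rw [map_mul, map_mul, map_mul, map_inv, map_inv, map_pow] at this
    exact mul_inv_eq_one.mp this
  have hswap : ∀ j : ℕ, b ^ j * a = a * b ^ (r * j) := by
    intro j
    rw [pow_mul, ← hab, show (a⁻¹ * b * a) = a⁻¹ * b * a⁻¹⁻¹ from by rw [inv_inv], conj_pow, inv_inv,
      ← mul_assoc, ← mul_assoc, mul_inv_cancel, one_mul]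
  have hswap' : ∀ k j : ℕ, b ^ j * a ^ k = a ^ k * b ^ (r ^ k * j) := by
    intro k
    induction k with
    | zero => intro j; simp
    | succ k ih =>
      intro j
      rw [pow_succ' a, ← mul_assoc, hswap, mul_assoc, ih, ← mul_assoc, pow_succ r, mul_assoc (r ^ k)]
  have key : ∀ x : PresentedGroup (rels n m r), ∃ i j : ℕ, x = a ^ i * b ^ j := by
    intro x
    have hx : x ∈ Subgroup.closure (Set.range (PresentedGroup.of : Fin 2 → PresentedGroup (rels n m r))) := by
      rw [PresentedGroup.closure_range_of]; trivial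
    induction hx using Subgroup.closure_induction with
    | mem y hy =>
      obtain ⟨k, rfl⟩ := hy
      fin_cases k
      · exact ⟨1, 0, by simp [ha]⟩
      · exact ⟨0, 1, by simp [hb]⟩
    | one => exact ⟨0, 0, by simp⟩
    | mul y z _ _ ihy ihz =>
      obtain ⟨i, j, rfl⟩ := ihy
      obtain ⟨k, l, rfl⟩ := ihz
      refine ⟨i + k, r ^ k * j + l, ?_⟩
      rw [mul_assoc, ← mul_assoc (b ^ j), hswap', pow_add, pow_add]
      group
    | inv y _ ihy =>
      obtain ⟨i, j, rfl⟩ := ihy
      refine ⟨(n - 1) * i, r ^ ((n - 1) * i) * ((m - 1) * j), ?_⟩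
      rw [← hswap']
      apply inv_eq_of_mul_eq_one_right
      rw [mul_assoc, ← mul_assoc (b ^ j), ← pow_add, show j + (m - 1) * j = m * j by
        rw [add_comm, ← Nat.succ_mul, Nat.succ_eq_add_one, Nat.sub_add_cancel hm], pow_mul, hbm, one_pow,
        one_mul, ← pow_add, show i + (n - 1) * i = n * i by
        rw [add_comm, ← Nat.succ_mul, Nat.succ_eq_add_one, Nat.sub_add_cancel hn], pow_mul, han, one_pow]
  obtain ⟨i, j, rfl⟩ := key g
  refine ⟨⟨i % n, Nat.mod_lt _ hn⟩, ⟨j % m, Nat.mod_lt _ hm⟩, ?_⟩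
  show a ^ i * b ^ j = a ^ (i % n) * b ^ (j % m)
  rw [← pow_eq_pow_mod i han, ← pow_eq_pow_mod j hbm]

/-- A finite Z-group with cyclic subgroups of order `p * q` has the presentation
`⟨x, y | x ^ n, y ^ m, x⁻¹ y x = y ^ r⟩` with the Zassenhaus conditions. -/
theorem exists_presentation {G : Type*} [Group G] [Finite G] [IsZGroup G]
    (hpq : ∀ (A : Subgroup G) (p q : ℕ), p.Prime → q.Prime → Nat.card A = p * q → IsCyclic A) :
    ∃ n m r : ℕ, 0 < n ∧ 0 < m ∧ Nat.Coprime (r - 1) m ∧ Nat.Coprime n m ∧ 1 ≤ r ∧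
      r ^ (n / ∏ p ∈ n.primeFactors, p) % m = 1 % m ∧ Nonempty (G ≃* PresentedGroup (rels n m r)) := by
  classical
  set N := commutator G with hN
  have hNcyc : IsCyclic N := IsZGroup.isCyclic_commutator G
  have hcop : (Nat.card N).Coprime N.index := IsZGroup.coprime_commutator_index G
  obtain ⟨C, hC⟩ := exists_right_complement'_of_coprime hcop
  have hCcyc : IsCyclic C := by
    have : IsCyclic (G ⧸ N) := IsZGroup.isCyclic_abelianization
    exact isCyclic_of_surjective (hC.symm.QuotientMulEquiv).toMonoidHom (MulEquiv.surjective _)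
  obtain ⟨x, hxC⟩ := Subgroup.isCyclic_iff_exists_zpowers_eq_top C |>.mp hCcyc
  obtain ⟨y, hyN⟩ := Subgroup.isCyclic_iff_exists_zpowers_eq_top N |>.mp hNcyc
  have hm : orderOf y = Nat.card N := by rw [← hyN, Nat.card_zpowers]
  have hn : orderOf x = N.index := by
    rw [hC.symm.index_eq_card, ← hxC, Nat.card_zpowers]
  have hgen : zpowers x ⊔ zpowers y = ⊤ := by rw [hxC, hyN, sup_comm]; exact hC.sup_eq_top
  obtain ⟨k, hk⟩ : ∃ k : ℤ, y ^ k = x⁻¹ * y * x := by
    rw [← mem_zpowers_iff, hyN]
    have hy : y ∈ N := hyN ▸ mem_zpowers y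
    simpa using (inferInstance : N.Normal).conj_mem y hy x⁻¹
  have hmpos : 0 < orderOf y := orderOf_pos y
  obtain ⟨r, hr1, hr⟩ : ∃ r : ℕ, 1 ≤ r ∧ y ^ r = x⁻¹ * y * x := by
    refine ⟨(k % (orderOf y : ℤ)).toNat + orderOf y, by omega, ?_⟩
    rw [pow_add, pow_orderOf_eq_one, mul_one, ← hk, ← zpow_natCast,
      Int.toNat_of_nonneg (Int.emod_nonneg _ (by omega)), zpow_mod_orderOf]
  -- `gcd (r - 1, m) = 1`
  have hgcd : Nat.Coprime (r - 1) (orderOf y) := by
    set D := zpowers (y ^ (r - 1)) with hD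
    have hDn : D.Normal := by
      have hDN : D ≤ N := zpowers_le.mpr (hyN ▸ pow_mem (mem_zpowers y) _)
      rw [← Subgroup.normalizer_eq_top_iff, eq_top_iff, ← hgen]
      refine sup_le (zpowers_le.mpr ?_) (zpowers_le.mpr ?_)
      · have : zpowers x⁻¹ ≤ Subgroup.normalizer (D : Set G) := by
          refine zpowers_le.mpr (mem_normalizer_iff_map_conj_eq.mpr ?_)
          refine Subgroup.eq_of_le_of_card_ge ?_ (le_of_eq (card_map_of_injective (MulAut.conj x⁻¹).injective).symm)
          rw [hD, MonoidHom.map_zpowers, zpowers_le]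
          show x⁻¹ * y ^ (r - 1) * x⁻¹⁻¹ ∈ _
          rw [← conj_pow, inv_inv, ← hr, ← pow_mul, mul_comm, pow_mul]
          exact pow_mem (mem_zpowers _) _
        rw [zpowers_inv] at this
        exact this (mem_zpowers x)
      · rw [mem_normalizer_iff]
        intro z
        constructor
        · intro hz
          obtain ⟨i, rfl⟩ := mem_zpowers_iff.mp hz
          rw [← zpow_natCast, ← zpow_mul, (Commute.self_zpow y _).eq, mul_inv_cancel_right, zpow_mul, zpow_natCast]
          exact zpow_mem (mem_zpowers _) _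
        · intro hz
          obtain ⟨i, hi⟩ := mem_zpowers_iff.mp hz
          have : z = y⁻¹ * ((y ^ (r - 1)) ^ i) * y := by rw [hi]; group
          rw [this, ← zpow_natCast, ← zpow_mul, ((Commute.self_zpow y _).inv_left).eq, inv_mul_cancel_right,
            zpow_mul, zpow_natCast]
          exact zpow_mem (mem_zpowers _) _
    have hle : N ≤ D := by
      rw [hN, ← QuotientGroup.ker_mk' D, commutator_def, ← Subgroup.map_eq_bot_iff,
        map_commutator, ← MonoidHom.range_eq_map, commutator_eq_bot_iff_le_centralizer,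
        MonoidHom.range_eq_map, ← hgen, Subgroup.map_sup, sup_le_iff, MonoidHom.map_zpowers,
        MonoidHom.map_zpowers, zpowers_le, zpowers_le]
      have hc : QuotientGroup.mk' D x * QuotientGroup.mk' D y = QuotientGroup.mk' D y * QuotientGroup.mk' D x := by
        rw [← map_mul, ← map_mul, QuotientGroup.mk'_eq_mk']
        refine ⟨(y ^ (r - 1))⁻¹ ^ 0 * (y ^ (r - 1)), by rw [pow_zero, one_mul]; exact mem_zpowers (y ^ (r - 1)), ?_⟩
        have e : y * x = x * y ^ r := by rw [hr]; group
        rw [e, pow_zero, one_mul, mul_assoc, ← pow_succ', Nat.sub_add_cancel hr1]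
      constructor <;> rw [mem_centralizer_iff] <;>
        intro z hz <;>
        obtain ⟨_, rfl⟩ := (show ∃ w, QuotientGroup.mk' D w = z from QuotientGroup.mk'_surjective D z) <;>
        clear hz <;>
        rename_i w
      · have hw : w ∈ zpowers x ⊔ zpowers y := hgen ▸ mem_top w
        have : zpowers x ⊔ zpowers y ≤ (centralizer {QuotientGroup.mk' D x}).comap (QuotientGroup.mk' D) :=
          sup_le (zpowers_le.mpr (mem_centralizer_singleton_iff.mpr rfl))
            (zpowers_le.mpr (mem_centralizer_singleton_iff.mpr hc.symm))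
        exact mem_centralizer_singleton_iff.mp (this hw)
      · have hw : w ∈ zpowers x ⊔ zpowers y := hgen ▸ mem_top w
        have : zpowers x ⊔ zpowers y ≤ (centralizer {QuotientGroup.mk' D y}).comap (QuotientGroup.mk' D) :=
          sup_le (zpowers_le.mpr (mem_centralizer_singleton_iff.mpr hc))
            (zpowers_le.mpr (mem_centralizer_singleton_iff.mpr rfl))
        exact mem_centralizer_singleton_iff.mp (this hw)
    have := Subgroup.card_le_of_le hle
    rw [← hyN, hD, Nat.card_zpowers, Nat.card_zpowers, orderOf_pow] at this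
    have hd := Nat.gcd_dvd_left (orderOf y) (r - 1)
    rcases Nat.lt_or_ge 1 (Nat.gcd (orderOf y) (r - 1)) with h | h
    · exact absurd (Nat.div_lt_self hmpos h) (not_lt.mpr this)
    · exact Nat.coprime_iff_gcd_eq_one.mpr (by
        rw [Nat.gcd_comm]
        have := Nat.gcd_pos_of_pos_left (r - 1) hmpos
        omega)
  -- the order of the action of `x` divides `n / n'`
  have hcopn : Nat.Coprime (orderOf x) (orderOf y) := by rw [hn, hm]; exact hcop.symm
  set φ : MulAut N := MulAut.conjNormal x with hφ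
  have hcent : ∀ p ∈ (orderOf x).primeFactors, φ ^ (orderOf x / p) = 1 := by
    intro p hp
    have hpp := Nat.prime_of_mem_primeFactors hp
    have hpd := Nat.dvd_of_mem_primeFactors hp
    set z := x ^ (orderOf x / p) with hz
    have hzo : orderOf z = p := orderOf_pow_orderOf_div (orderOf_pos x).ne' hpd
    have hzcop : (Nat.card (zpowers z)).Coprime (Nat.card N) := by
      rw [Nat.card_zpowers, hzo]
      exact Nat.Coprime.coprime_dvd_left hpd (hm ▸ hcopn)
    have hnorm : ∀ v ∈ N, (zpowers v).Normal := by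
      intro v hv
      refine ⟨fun a ha g => ?_⟩
      obtain ⟨i, rfl⟩ := mem_zpowers_iff.mp ha
      obtain ⟨j, hj⟩ := MonoidHom.map_cyclic (MulAut.conjNormal g : MulAut N).toMonoidHom
      have := congrArg Subtype.val (hj ⟨v, hv⟩)
      have e : g * v * g⁻¹ = v ^ j := by simpa using this
      rw [← conj_zpow, e]
      exact zpow_mem (zpow_mem (mem_zpowers v) j) i
    have hNcomm : IsMulCommutative (zpowers z) := inferInstance
    have hle : zpowers z ≤ centralizer (N : Set G) := by
      refine Cfsg.Agent.S0056.result (zpowers z) N ?_ hzcop ?_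
      · rw [Subgroup.normalizer_eq_top_iff.mpr (inferInstance : N.Normal)]; exact le_top
      intro v hv hvp a ha
      set A := zpowers v ⊔ zpowers z with hA
      have := hnorm v hv
      have hcard : Nat.card A = p * orderOf v := by
        have h1 : Nat.card A ∣ Nat.card (zpowers z) * Nat.card (zpowers v) := by
          rw [hA, sup_comm]
          exact Cfsg.Agent.Cores.card_sup_dvd_mul _ _
        have h2 : Nat.card (zpowers z) ∣ Nat.card A := card_dvd_of_le le_sup_right
        have h3 : Nat.card (zpowers v) ∣ Nat.card A := card_dvd_of_le le_sup_left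
        rw [Nat.card_zpowers, Nat.card_zpowers, hzo] at h1
        rw [Nat.card_zpowers, hzo] at h2
        rw [Nat.card_zpowers] at h3
        refine Nat.dvd_antisymm h1 (Nat.Coprime.mul_dvd_of_dvd_of_dvd ?_ h2 h3)
        refine Nat.Coprime.coprime_dvd_left hpd (hcopn.coprime_dvd_right ?_)
        rw [hm, ← Nat.card_zpowers]
        exact card_dvd_of_le (zpowers_le.mpr hv)
      have := hpq A p (orderOf v) hpp hvp hcard
      exact congrArg Subtype.val ((IsCyclic.commGroup (α := A)).mul_comm
        ⟨a, (le_sup_right : zpowers z ≤ A) ha⟩ ⟨v, (le_sup_left : zpowers v ≤ A) (mem_zpowers v)⟩)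
    ext w
    rw [hφ, ← map_pow]
    have := mem_centralizer_iff.mp (hle (mem_zpowers z)) w w.2
    simp only [MulAut.conjNormal_apply, MulAut.one_apply]
    rw [← hz, ← this, mul_inv_cancel_right]
  have hd : orderOf φ ∣ orderOf x / ∏ p ∈ (orderOf x).primeFactors, p := by
    obtain ⟨e, he⟩ : orderOf φ ∣ orderOf x := orderOf_map_dvd _ _
    have hprod : (∏ p ∈ (orderOf x).primeFactors, p) ∣ e := by
      refine Finset.prod_primes_dvd _ (fun p hp => (Nat.prime_of_mem_primeFactors hp).prime) fun p hp => ?_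
      obtain ⟨t, ht⟩ := orderOf_dvd_of_pow_eq_one (hcent p hp)
      refine ⟨t, Nat.eq_of_mul_eq_mul_left (orderOf_pos φ) ?_⟩
      rw [← he, ← Nat.mul_div_cancel' (Nat.dvd_of_mem_primeFactors hp), ht]
      ring
    obtain ⟨t, ht⟩ := hprod
    refine ⟨t, ?_⟩
    set P := ∏ p ∈ (orderOf x).primeFactors, p with hP
    have hPpos : 0 < P := Finset.prod_pos fun p hp => (Nat.prime_of_mem_primeFactors hp).pos
    rw [he, ht, show orderOf φ * (P * t) = P * (orderOf φ * t) by ring]
    exact Nat.mul_div_cancel_left _ hPpos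
  set d := orderOf x / ∏ p ∈ (orderOf x).primeFactors, p with hdd
  have hrd : r ^ d % orderOf y = 1 % orderOf y := by
    have hiter : ∀ i : ℕ, (x ^ i)⁻¹ * y * x ^ i = y ^ (r ^ i) := by
      intro i
      induction i with
      | zero => simp
      | succ i ih =>
        rw [pow_succ r, pow_mul, ← ih]
        calc (x ^ (i + 1))⁻¹ * y * x ^ (i + 1) = (x ^ i)⁻¹ * (x⁻¹ * y * x) * x ^ i := by
              rw [pow_succ']; group
          _ = ((x ^ i)⁻¹ * y * x ^ i) ^ r := by
              rw [← hr, show (x ^ i)⁻¹ * y * x ^ i = (x ^ i)⁻¹ * y * (x ^ i)⁻¹⁻¹ by rw [inv_inv], conj_pow, inv_inv]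
    have h1 : φ ^ d = 1 := orderOf_dvd_iff_pow_eq_one.mp hd
    have h2 : (x ^ d) * y * (x ^ d)⁻¹ = y := by
      have := congrArg (fun f : MulAut N => ((f ⟨y, hyN ▸ mem_zpowers y⟩ : N) : G)) h1
      simp only [hφ, ← map_pow, MulAut.conjNormal_apply, MulAut.one_apply] at this
      exact this
    have h3 : y ^ (r ^ d) = y ^ 1 := by
      rw [← hiter d, pow_one]
      nth_rewrite 1 [← h2]
      group
    exact pow_eq_pow_iff_modEq.mp h3
  refine ⟨orderOf x, orderOf y, r, orderOf_pos x, hmpos, hgcd, hcopn, hr1, hrd, ?_⟩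
  -- the isomorphism
  set R := rels (orderOf x) (orderOf y) r with hR
  have hrels : ∀ w ∈ R, FreeGroup.lift ![x, y] w = 1 := by
    rintro w (rfl | rfl | rfl)
    · rw [map_pow, FreeGroup.lift_apply_of]; exact pow_orderOf_eq_one x
    · rw [map_pow, FreeGroup.lift_apply_of]; exact pow_orderOf_eq_one y
    · simp only [map_mul, map_inv, map_pow, FreeGroup.lift_apply_of]
      show x⁻¹ * y * x * (y ^ r)⁻¹ = 1
      rw [hr, mul_inv_cancel]
  let ψ : PresentedGroup R →* G := PresentedGroup.toGroup hrels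
  have hψ : Function.Surjective ψ := by
    rw [← MonoidHom.range_eq_top, eq_top_iff, ← hgen, sup_le_iff, zpowers_le, zpowers_le]
    exact ⟨⟨PresentedGroup.of 0, by simp [ψ]⟩, ⟨PresentedGroup.of 1, by simp [ψ]⟩⟩
  have hsurj : Function.Surjective (fun ij : Fin (orderOf x) × Fin (orderOf y) =>
      (PresentedGroup.of 0 ^ (ij.1 : ℕ) * PresentedGroup.of 1 ^ (ij.2 : ℕ) : PresentedGroup R)) := fun g => by
    obtain ⟨i, j, h⟩ := normal_form _ _ r (orderOf_pos x) hmpos g
    exact ⟨(i, j), h.symm⟩
  have : Finite (PresentedGroup R) := Finite.of_surjective _ hsurj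
  have hcard : Nat.card (PresentedGroup R) ≤ Nat.card G := by
    refine (Nat.card_le_card_of_surjective _ hsurj).trans (le_of_eq ?_)
    rw [Nat.card_prod, Nat.card_fin, Nat.card_fin, hn, hm, mul_comm, N.card_mul_index]
  have hbij : Function.Bijective ψ := by
    have : Fintype (PresentedGroup R) := Fintype.ofFinite _
    have : Fintype G := Fintype.ofFinite _
    rw [Fintype.bijective_iff_surjective_and_card]
    refine ⟨hψ, le_antisymm ?_ (Fintype.card_le_of_surjective _ hψ)⟩
    simpa [Nat.card_eq_fintype_card] using hcard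
  exact ⟨(MulEquiv.ofBijective ψ hbij).symm⟩

end Cfsg.Agent.ZGroupPres
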